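import Cfsg.Agent.Lib.H42.InvFin
import Cfsg.Agent.Lib.H22.ChevAll

/-!
Conjugacy classes of involutions in Chevalley groups of odd characteristic: generic statements.
-/

set_option autoImplicit false

namespace H42.InvCls

open H22.RGD H22.Coord H22.RCPack H22.RCCheck H22.RCComb H22.ChevTri H22.ChevRel H22.ChevSys
open H22.ChevMain H22.ChevStd H22.ChevUni H22.ChevTorus H22.Poincare
open H42.InvH H42.InvC H42.InvSub H42.InvOrb H42.InvSys H42.InvDat H42.InvFin
open Cfsg.Lie (ChevalleyDatum)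
open scoped MatrixGroups Matrix

theorem two_ne {F : Type*} [Field F] [Fintype F] (hF : Odd (Fintype.card F)) : (2 : F) ≠ 0 := by
  intro h
  have h1 : ringChar F = 2 := by
    have : CharP F 2 := CharTwo.of_one_ne_zero_of_two_eq_zero one_ne_zero h
    exact ringChar.eq F 2 |>.symm ▸ rfl
  have h2 := FiniteField.even_card_of_char_two h1
  obtain ⟨k, hk⟩ := hF
  omega

variable {D : ChevalleyDatum} {F : Type*} [Field F] [Fintype F] {R : Rel D F} {X : RCX D}

theorem exists_torus (Z : Lex X.rc) (h2F : (2 : F) ≠ 0) (K : CK D) (E : SLH R) (t : D.group F)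
    (ht : orderOf t = 2) : ∃ b, b ≠ 0 ∧ b < 2 ^ D.rank ∧ ∃ t' ∈ Hs R, Sgn R X t' b ∧
      ∃ g ∈ D.group F, g * (t : GL D.Idx F) * g⁻¹ = t' := by
  have h1 : t * t = 1 := by rw [← pow_two, ← ht]; exact pow_orderOf_eq_one t
  have h2 : (t : GL D.Idx F) * t = 1 := congrArg Subtype.val h1
  have hne : (t : GL D.Idx F) ≠ 1 := by
    intro h
    have : t = 1 := Subtype.ext h
    rw [this, orderOf_one] at ht
    norm_num at ht
  obtain ⟨g, hg, hH⟩ := conj_H R Z h2F K E t.2 h2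
  rw [chevSys_H, diagonalSubgroup_eq R X] at hH
  have h3 : g * (t : GL D.Idx F) * g⁻¹ * (g * t * g⁻¹) = 1 := by
    have : g * (t : GL D.Idx F) * g⁻¹ * (g * t * g⁻¹) = g * (t * t) * g⁻¹ := by group
    rw [this, h2]; simp
  obtain ⟨b, hb, hs⟩ := exists_mask R X hH h3
  have hne' : g * (t : GL D.Idx F) * g⁻¹ ≠ 1 := by
    intro h
    apply hne
    have : (t : GL D.Idx F) = g⁻¹ * (g * t * g⁻¹) * g := by group
    rw [this, h]; group
  exact ⟨b, hs.mask_ne hH hne', hb, _, hH, hs, g, hg, rfl⟩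

theorem conj_cls {b₀ b : ℕ} (s₀ : D.group F) (hs₀ : (s₀ : GL D.Idx F) ∈ Hs R) (h₀ : Sgn R X s₀ b₀)
    (u : D.group F) {t' : GL D.Idx F} (ht' : t' ∈ Hs R) (h' : Sgn R X t' b) {g : GL D.Idx F}
    (hg : g ∈ D.group F) (e : g * (u : GL D.Idx F) * g⁻¹ = t')
    (hO : ∃ w ∈ (H22.RCComb.comb X).W, sg (H22.RCComb.coord X) (fb D.rank b₀) w = b) :
    IsConj u s₀ := by
  obtain ⟨w, hw, hw'⟩ := hO
  obtain ⟨n, hn, hn'⟩ := sgn_conj ht' hs₀ h' h₀ hw hw'
  rw [isConj_iff]
  refine ⟨⟨n * g, (D.group F).mul_mem hn hg⟩, Subtype.ext ?_⟩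
  show n * g * (u : GL D.Idx F) * (n * g)⁻¹ = s₀
  rw [← hn', ← e]; group

theorem tv_group (R : Rel D F) (X : RCX D) (v : ℕ) : tv R v ∈ D.group F := by
  rw [← chevSys_Γ R X]
  apply (chevSys R X).B_le_Γ
  apply (chevSys R X).H_le_B
  rw [chevSys_H, diagonalSubgroup_eq R X]
  exact tv_mem R v

/-- the standard involutions -/
def tvg (R : Rel D F) (X : RCX D) (v : ℕ) : D.group F := ⟨tv R v, tv_group R X v⟩

theorem order_tvg (h2F : (2 : F) ≠ 0) {v b : ℕ} (h : Sgn R X (tv R v) b) (hb : b ≠ 0)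
    (hb2 : b < 2 ^ D.rank) : orderOf (tvg R X v) = 2 := by
  apply orderOf_eq_prime
  · rw [pow_two]; exact Subtype.ext (tv_sq R v)
  · intro h1
    exact h.ne_one h2F hb hb2 (congrArg Subtype.val h1)

theorem card_eq {q : ℕ} (hq : Fintype.card F = q) (Z : Lex X.rc) (h2F : (2 : F) ≠ 0)
    (hker : Nat.card (chi D F).ker = 1) {T h l' b v np : ℕ}
    (S : SubC (H22.RCComb.coord X) l') (hf : S.f = fb D.rank b) (hh : X.rc.half = h)
    (hco : X.rc.co = co T D.rank)
    (hnp : ((List.range h).filter fun r => pE D T b (h + r)).length = np)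
    (hSt : S.WS = S.St) (hs : Sgn R X (tv R v) b) :
    Nat.card (Subgroup.centralizer ({tvg R X v} : Set (D.group F))) =
      q ^ np * ((q - 1) ^ D.rank * P S.comb l' q) := by
  rw [card_centralizer]
  have h1 := hs.card_cent hq Z h2F S hf hSt (tv_mem R v)
  have h2 := H22.ChevTorusCard.s1035_aux hq R X hker
  rw [one_mul] at h2
  rw [npos_eq S hf hh hco, hnp, h2] at h1
  rw [← mul_assoc]
  exact h1

end H42.InvCls
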