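import Cfsg.Agent.Lib.H42.InvSys
import Cfsg.Agent.Lib.H42.InvCK

/-!
Checkers for subsystem data and orbits.
-/

set_option autoImplicit false

namespace H42.InvDat

open H22.RGD H22.Coord H22.RCPack H22.RCCheck H22.RCComb H42.InvSub H42.InvOrb H42.InvCK
open Cfsg.Lie (ChevalleyDatum)

/-- dot product of lists -/
def dot : List ℤ → List ℤ → ℤ
  | x :: xs, y :: ys => x * y + dot xs ys
  | _, _ => 0

theorem dot_eq : ∀ (x y : List ℤ) (n : ℕ), x.length = n → y.length = n →
    dot x y = ∑ m : Fin n, x.getD m 0 * y.getD m 0 := by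
  intro x
  induction x with
  | nil =>
    intro y n hx hy
    simp only [List.length_nil] at hx
    subst hx
    simp [dot]
  | cons a x ih =>
    intro y n hx hy
    cases y with
    | nil => simp at hy; simp at hx; omega
    | cons b y =>
      obtain ⟨k, rfl⟩ : ∃ k, n = k + 1 := ⟨x.length, by simpa using hx.symm⟩
      rw [Fin.sum_univ_succ]
      simp only [dot, Fin.val_zero, List.getD_cons_zero, Fin.val_succ, List.getD_cons_succ]
      rw [ih y k (by simpa using hx) (by simpa using hy)]

variable (D : ChevalleyDatum) (T h : ℕ) (A : ℕ → ℕ → ℤ)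

/-- coordinates of a root as a list -/
def cr (r : ℕ) : List ℤ := (List.range D.rank).map (co T D.rank r)

/-- reflection of a coordinate list -/
def rf (i : ℕ) (v : List ℤ) : List ℤ :=
  v.set i (v.getD i 0 - dot ((List.range D.rank).map (A i)) v)

/-- a word applied to a coordinate list -/
def rw (L : List ℕ) (v : List ℤ) : List ℤ := L.foldr (fun i v => rf D A i v) v

/-- subtraction of a multiple -/
def sb (c : ℤ) : List ℤ → List ℤ → List ℤ
  | x :: xs, y :: ys => (x - c * y) :: sb c xs ys
  | _, _ => []

/-- the functional of a mask as a list -/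
def fl (b : ℕ) : List ℤ := (List.range D.rank).map fun m => if b.testBit m then 1 else 0

/-- parity -/
def pE (b r : ℕ) : Bool := !(oddB (dot (cr D T r) (fl D b)))

variable (b : ℕ) (βs : List ℕ) (ws : List (List ℕ × ℕ)) (As Ns : List (List ℤ)) (d : ℤ)

/-- subsystem coordinates -/
def TT (r k : ℕ) : ℤ := dot (cr D T r) (Ns.getD k []) / d

/-- the linear combination of the simple roots of the subsystem -/
def lc (r m : ℕ) : ℕ → ℤ
  | 0 => 0
  | n + 1 => lc r m n + TT D T Ns d r n * co T D.rank (βs.getD n 0) m

def ckS1 (l' : ℕ) : Bool :=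
  allN (fun j => Nat.ble h (βs.getD j 0) && Nat.ble (βs.getD j 0 + 1) (2 * h) &&
    pE D T b (βs.getD j 0) && Nat.ble ((ws.getD j ([], 0)).2 + 1) D.rank &&
    (ws.getD j ([], 0)).1.all (fun i => Nat.ble (i + 1) D.rank) &&
    (rw D A (ws.getD j ([], 0)).1 (cr D T (D.simple (ws.getD j ([], 0)).2)) == cr D T (βs.getD j 0)) &&
    Nat.beq (As.getD j []).length l' && Nat.beq (Ns.getD j []).length D.rank) l'

def ckS2 (l' : ℕ) : Bool :=
  allN (fun j => allN (fun k =>
    rw D A ((ws.getD j ([], 0)).1 ++ (ws.getD j ([], 0)).2 :: (ws.getD j ([], 0)).1.reverse)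
      (cr D T (βs.getD k 0)) == sb ((As.getD j []).getD k 0) (cr D T (βs.getD k 0)) (cr D T (βs.getD j 0)))
    l') l'

def ckS3 (l' : ℕ) : Bool :=
  allN (fun j => allN (fun k => decide (dot (cr D T (βs.getD j 0)) (Ns.getD k []) =
    if Nat.beq j k then d else 0)) l') l'

def ckS4 (l' : ℕ) : Bool :=
  allN (fun r => !(pE D T b r) || allN (fun m => decide (co T D.rank r m = lc D T βs Ns d r m l')) D.rank)
    (2 * h)

def ckS5 (l' : ℕ) : Bool :=
  allN (fun r => !(pE D T b (h + r)) || (allN (fun j => decide (0 ≤ TT D T Ns d (h + r) j)) l' &&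
    (exN (fun j => Nat.beq (h + r) (βs.getD j 0)) l' ||
      exN (fun i => decide (0 < TT D T Ns d (h + r) i) &&
        exN (fun j => !(Nat.beq j i) && decide (0 < TT D T Ns d (h + r) j)) l') l'))) h

variable {D T h A b βs ws As Ns d}

theorem cr_length (r : ℕ) : (cr D T r).length = D.rank := by simp [cr]

theorem cr_getD (r : ℕ) {m : ℕ} (hm : m < D.rank) : (cr D T r).getD m 0 = co T D.rank r m := by
  rw [List.getD_eq_getElem _ _ (by rw [cr_length]; exact hm)]
  simp [cr]

theorem rf_length (i : ℕ) (v : List ℤ) : (rf D A i v).length = v.length := by simp [rf]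

theorem rf_getElem (i : ℕ) (v : List ℤ) (j : ℕ) (hj : j < (rf D A i v).length) (hj' : j < v.length) :
    (rf D A i v)[j] = if i = j then v.getD i 0 - dot ((List.range D.rank).map (A i)) v else v[j] := by
  simp only [rf, List.getElem_set]

variable (X : RCX D)

theorem rf_cr (hh : X.rc.half = h) (hco : X.rc.co = co T D.rank) (hA : X.rc.A = A) (i : Fin D.rank)
    (r : Fin D.nroots) : rf D A i (cr D T r) = cr D T ((H22.RCComb.comb X).refl i r : Fin D.nroots) := by
  apply List.ext_getElem
  · rw [rf_length, cr_length, cr_length]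
  · intro j hj hj'
    rw [cr_length] at hj'
    have h1 := (H22.RCComb.coord X).co_refl i r ⟨j, hj'⟩
    have e : ∀ (x : Fin D.nroots) (y : Fin D.rank), (H22.RCComb.coord X).co x y = co T D.rank x y := by
      intro x y
      show X.rc.co x y = _
      rw [hco]
    have e2 : dot ((List.range D.rank).map (A i)) (cr D T r) =
        ∑ k, (H22.RCComb.coord X).A i k * (H22.RCComb.coord X).co r k := by
      rw [dot_eq _ _ D.rank (by simp) (cr_length _)]
      refine Finset.sum_congr rfl fun k _ => ?_
      rw [cr_getD _ k.2, e, List.getD_eq_getElem _ _ (by simp)]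
      simp only [List.getElem_map, List.getElem_range]
      show A i k * _ = X.rc.A i k * _
      rw [hA]
    have e3 : (cr D T ((H22.RCComb.comb X).refl i r : Fin D.nroots))[j]'(by rw [cr_length]; exact hj') =
        co T D.rank ((H22.RCComb.comb X).refl i r : Fin D.nroots) j := by simp [cr]
    rw [e3, ← e _ ⟨j, hj'⟩, h1, rf_getElem _ _ _ _ (by rw [cr_length]; exact hj'), e2]
    by_cases hij : i.val = j
    · rw [if_pos hij, if_pos (Fin.ext hij.symm), cr_getD _ i.2, ← e]
      congr 1
      have : i = ⟨j, hj'⟩ := Fin.ext hij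
      rw [this]
    · rw [if_neg hij, if_neg (fun h => hij (congrArg Fin.val h).symm), sub_zero, e]
      simp [cr]

theorem rw_cr (hh : X.rc.half = h) (hco : X.rc.co = co T D.rank) (hA : X.rc.A = A)
    (L : List (Fin D.rank)) (r : Fin D.nroots) :
    rw D A (L.map Fin.val) (cr D T r) = cr D T ((H22.RCComb.comb X).w L r : Fin D.nroots) := by
  induction L with
  | nil => rfl
  | cons i L ih =>
    rw [RootComb.w_cons, Equiv.Perm.mul_apply, ← rf_cr X hh hco hA, ← ih]
    rfl

theorem cr_inj (hco : X.rc.co = co T D.rank) {r s : Fin D.nroots} (h : cr D T r = cr D T s) : r = s := by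
  apply Fin.ext
  apply X.rc.co_inj r r.2 s s.2
  intro j hj
  rw [hco, ← cr_getD r hj, ← cr_getD s hj, h]

theorem sb_getD (c : ℤ) : ∀ (x y : List ℤ) (m : ℕ), m < x.length → m < y.length →
    (sb c x y).getD m 0 = x.getD m 0 - c * y.getD m 0 := by
  intro x
  induction x with
  | nil => intro y m hm _; simp at hm
  | cons a x ih =>
    intro y m hm hm'
    cases y with
    | nil => simp at hm'
    | cons b' y =>
      cases m with
      | zero => simp [sb]
      | succ m =>
        simp only [sb, List.getD_cons_succ]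
        exact ih y m (by simpa using hm) (by simpa using hm')

theorem lc_eq (r m n : ℕ) : lc D T βs Ns d r m n =
    ∑ k ∈ Finset.range n, TT D T Ns d r k * co T D.rank (βs.getD k 0) m := by
  induction n with
  | zero => simp [lc]
  | succ n ih => rw [lc, ih, Finset.sum_range_succ]

/-- a list of indices as a list in `Fin` -/
def toF (n : ℕ) (L : List ℕ) : List (Fin n) := L.filterMap fun i => if h : i < n then some ⟨i, h⟩ else none

theorem toF_val {n : ℕ} {L : List ℕ} (hL : L.all (fun i => Nat.ble (i + 1) n) = true) :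
    (toF n L).map Fin.val = L := by
  induction L with
  | nil => rfl
  | cons a L ih =>
    simp only [List.all_cons, Bool.and_eq_true] at hL
    have ha : a < n := Nat.le_of_ble_eq_true hL.1
    unfold toF
    rw [List.filterMap_cons_some (b := ⟨a, ha⟩) (by simp [ha]), List.map_cons]
    congr 1
    exact ih hL.2

theorem pE_iff (hco : X.rc.co = co T D.rank) (r : Fin D.nroots) :
    pE D T b r = true ↔ Even (fv (H22.RCComb.coord X) (fb D.rank b) r) := by
  unfold pE
  rw [Bool.not_eq_true', ← Bool.not_eq_true, oddB_iff, Int.not_odd_iff_even,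
    dot_eq _ _ D.rank (cr_length _) (by simp [fl])]
  unfold fv
  have : ∀ m : Fin D.rank, (cr D T r).getD m 0 * (fl D b).getD m 0 =
      (H22.RCComb.coord X).co r m * fb D.rank b m := by
    intro m
    rw [cr_getD _ m.2]
    have e : (H22.RCComb.coord X).co r m = co T D.rank r m := by
      show X.rc.co r m = _
      rw [hco]
    rw [e, fl, List.getD_eq_getElem _ _ (by simp)]
    simp [fb]
  rw [Finset.sum_congr rfl (fun m _ => this m)]

/-- the subsystem from the checks -/
def ofCk (hh : X.rc.half = h) (hco : X.rc.co = co T D.rank) (hA : X.rc.A = A) (l' : ℕ) (hd : d ≠ 0)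
    (h1 : ckS1 D T h A b βs ws As Ns l' = true) (h2 : ckS2 D T A βs ws As l' = true)
    (h3 : ckS3 D T βs Ns d l' = true) (h4 : ckS4 D T h b βs Ns d l' = true)
    (h5 : ckS5 D T h b βs Ns d l' = true) : SubC (H22.RCComb.coord X) l' :=
  have hn : D.nroots = 2 * h := by rw [← hh]; exact X.rc.nroots_eq
  have g1 := fun j (hj : j < l') => allN_spec h1 j hj
  have hβlt : ∀ j < l', βs.getD j 0 < D.nroots := by
    intro j hj
    have := g1 j hj
    simp only [Bool.and_eq_true] at this
    rw [hn]
    exact Nat.le_of_ble_eq_true this.1.1.1.1.1.1.2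
  have hilt : ∀ j < l', (ws.getD j ([], 0)).2 < D.rank := by
    intro j hj
    have := g1 j hj
    simp only [Bool.and_eq_true] at this
    exact Nat.le_of_ble_eq_true this.1.1.1.1.2
  have e : ∀ (x : Fin D.nroots) (y : Fin D.rank), (H22.RCComb.coord X).co x y = co T D.rank x y := by
    intro x y
    show X.rc.co x y = _
    rw [hco]
  have hval : ∀ j < l', (toF D.rank (ws.getD j ([], 0)).1).map Fin.val = (ws.getD j ([], 0)).1 := by
    intro j hj
    have := g1 j hj
    simp only [Bool.and_eq_true] at this
    exact toF_val this.1.1.1.2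
  { f := fb D.rank b
    β := fun j => ⟨βs.getD j 0, hβlt j j.2⟩
    L := fun j => toF D.rank (ws.getD j ([], 0)).1
    i0 := fun j => ⟨(ws.getD j ([], 0)).2, hilt j j.2⟩
    hL := by
      intro j
      have := g1 j j.2
      simp only [Bool.and_eq_true] at this
      apply cr_inj X hco
      rw [← rw_cr X hh hco hA, hval j j.2]
      exact eq_of_beq this.1.1.2
    hβ := by
      intro j
      have := g1 j j.2
      simp only [Bool.and_eq_true] at this
      exact (pE_iff X hco ⟨βs.getD j 0, hβlt j j.2⟩).1 this.1.1.1.1.1.2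
    hβp := by
      intro j
      have := g1 j j.2
      simp only [Bool.and_eq_true] at this
      show X.rc.half ≤ βs.getD j 0
      rw [hh]
      exact Nat.le_of_ble_eq_true this.1.1.1.1.1.1.1
    A := fun j k => (As.getD j []).getD k 0
    hA := by
      intro j k m
      have h6 := eq_of_beq (allN_spec (allN_spec h2 j j.2) k k.2)
      have h7 : (H22.RCComb.comb X).w (toF D.rank (ws.getD j ([], 0)).1) *
          (H22.RCComb.comb X).refl ⟨(ws.getD j ([], 0)).2, hilt j j.2⟩ *
          ((H22.RCComb.comb X).w (toF D.rank (ws.getD j ([], 0)).1))⁻¹ =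
          (H22.RCComb.comb X).w (toF D.rank (ws.getD j ([], 0)).1 ++
            ⟨(ws.getD j ([], 0)).2, hilt j j.2⟩ :: (toF D.rank (ws.getD j ([], 0)).1).reverse) := by
        rw [RootComb.w_append, RootComb.w_cons, RootComb.w_reverse, mul_assoc]
      have h8 : (toF D.rank (ws.getD j ([], 0)).1 ++
            ⟨(ws.getD j ([], 0)).2, hilt j j.2⟩ :: (toF D.rank (ws.getD j ([], 0)).1).reverse).map Fin.val =
          (ws.getD j ([], 0)).1 ++ (ws.getD j ([], 0)).2 :: (ws.getD j ([], 0)).1.reverse := by
        rw [List.map_append, List.map_cons, List.map_reverse, hval j j.2]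
      rw [h7, e, e, e]
      have h9 := rw_cr X hh hco hA (toF D.rank (ws.getD j ([], 0)).1 ++
            ⟨(ws.getD j ([], 0)).2, hilt j j.2⟩ :: (toF D.rank (ws.getD j ([], 0)).1).reverse)
            ⟨βs.getD k 0, hβlt k k.2⟩
      rw [h8] at h9
      simp only at h9
      rw [h6] at h9
      rw [← cr_getD _ m.2, ← h9, sb_getD _ _ _ _ (by rw [cr_length]; exact m.2) (by rw [cr_length]; exact m.2),
        cr_getD _ m.2, cr_getD _ m.2]
    T := fun r k => TT D T Ns d r k
    span := by
      intro r hr m
      have h6 := allN_spec h4 r (by rw [← hn]; exact r.2)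
      rw [(pE_iff X hco r).2 hr] at h6
      simp only [Bool.not_true, Bool.false_or] at h6
      have h7 := of_decide_eq_true (allN_spec h6 m m.2)
      rw [e, h7, lc_eq, Finset.sum_range]
      refine Finset.sum_congr rfl fun k _ => ?_
      rw [e]
    N := fun m k => (Ns.getD k []).getD m 0
    d := d
    hd := hd
    inv := by
      intro j k
      have h6 := of_decide_eq_true (allN_spec (allN_spec h3 j j.2) k k.2)
      have h7 := g1 k k.2
      simp only [Bool.and_eq_true] at h7
      have h8 := Nat.eq_of_beq_eq_true h7.2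
      rw [dot_eq _ _ D.rank (cr_length _) h8] at h6
      have h9 : ∑ m : Fin D.rank, (H22.RCComb.coord X).co ⟨βs.getD j 0, hβlt j j.2⟩ m * (Ns.getD k []).getD m 0 =
          ∑ m : Fin D.rank, (cr D T (βs.getD j 0)).getD m 0 * (Ns.getD k []).getD m 0 := by
        refine Finset.sum_congr rfl fun m _ => ?_
        rw [e, cr_getD _ m.2]
      rw [h9, h6]
      by_cases hjk : j = k
      · simp [hjk]
      · have : Nat.beq j.val k.val = false := by
          rw [Bool.eq_false_iff]
          intro h
          exact hjk (Fin.ext (Nat.eq_of_beq_eq_true h))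
        rw [this, if_neg hjk]; simp
    nonneg := by
      intro r hr hp j
      have hp' : h ≤ r.val := by rw [← hh]; exact hp
      have h6 := allN_spec h5 (r.val - h) (by have := r.2; omega)
      rw [show h + (r.val - h) = r.val by omega, (pE_iff X hco r).2 hr] at h6
      simp only [Bool.not_true, Bool.false_or, Bool.and_eq_true] at h6
      exact of_decide_eq_true (allN_spec h6.1 j j.2)
    red := by
      intro r hr hp j
      have hp' : h ≤ r.val := by rw [← hh]; exact hp
      have h6 := allN_spec h5 (r.val - h) (by have := r.2; omega)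
      rw [show h + (r.val - h) = r.val by omega, (pE_iff X hco r).2 hr] at h6
      simp only [Bool.not_true, Bool.false_or, Bool.and_eq_true, Bool.or_eq_true] at h6
      have hlin : ∀ i : Fin l', r.val = βs.getD i 0 → TT D T Ns d r i = 1 := by
        intro i hi
        have h7 := of_decide_eq_true (allN_spec (allN_spec h3 i i.2) i i.2)
        unfold TT
        rw [hi, h7]
        simp [Int.ediv_self hd]
      rcases h6.2 with h7 | h7
      · obtain ⟨i, hi, h8⟩ := exN_spec h7
        have h9 := Nat.eq_of_beq_eq_true h8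
        by_cases hij : i = j.val
        · left; apply Fin.ext; rw [h9, hij]
        · right
          refine ⟨⟨i, hi⟩, fun h => hij (congrArg Fin.val h), ?_⟩
          rw [hlin ⟨i, hi⟩ h9]; norm_num
      · obtain ⟨i, hi, h8⟩ := exN_spec h7
        rw [Bool.and_eq_true] at h8
        obtain ⟨k, hk, h9⟩ := exN_spec h8.2
        rw [Bool.and_eq_true] at h9
        have hki : k ≠ i := by rintro rfl; simp at h9
        by_cases hij : i = j.val
        · right
          exact ⟨⟨k, hk⟩, fun h => hki ((congrArg Fin.val h).trans hij.symm), of_decide_eq_true h9.2⟩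
        · right
          exact ⟨⟨i, hi⟩, fun h => hij (congrArg Fin.val h), of_decide_eq_true h8.1⟩ }

end H42.InvDat
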