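import Cfsg.Agent.Lib.H42.InvDat

/-!
Subsystem data for the involutions in type F4.
-/

set_option autoImplicit false

namespace H42.InvF4

open H22.RGD H22.Coord H22.RCPack H22.RCCheck H22.RCComb H22.Poincare
open H42.InvSub H42.InvOrb H42.InvDat

/-- parities of the Cartan matrix -/
def rm : List ℕ := [2, 1, 10, 4]

theorem rmOk : RowsB (coord H22.PoinF4.rcxF4) rm := by
  have : ∀ i : Fin 4, rm.getD i 0 < 2 ^ 4 ∧ ∀ m : Fin 4, (rm.getD i 0).testBit m =
      decide (Odd (H22.RCSmall.matF4 i m)) := by decide +kernel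
  exact this

/-! ### class a: mask 1, orbit of size 3 -/

def bs_a : List ℕ := [27, 25, 24, 41]
def ws_a : List (List ℕ × ℕ) := [([], 1), ([], 2), ([], 3), ([0, 1], 2)]
def As_a : List (List ℤ) := [[2, -2, 0, 0], [-1, 2, -1, 0], [0, -1, 2, -1], [0, 0, -1, 2]]
def Ns_a : List (List ℤ) := [[-2, 2, 0, 0], [-1, 0, 2, 0], [0, 0, 0, 2], [1, 0, 0, 0]]

theorem c1_a : ckS1 Cfsg.Lie.chevF4 H22.RCSmall.tabF4 24 H22.RCSmall.matF4 1 bs_a ws_a As_a Ns_a 4 = true := by decide +kernel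
theorem c2_a : ckS2 Cfsg.Lie.chevF4 H22.RCSmall.tabF4 H22.RCSmall.matF4 bs_a ws_a As_a 4 = true := by decide +kernel
theorem c3_a : ckS3 Cfsg.Lie.chevF4 H22.RCSmall.tabF4 bs_a Ns_a 2 4 = true := by decide +kernel
theorem c4_a : ckS4 Cfsg.Lie.chevF4 H22.RCSmall.tabF4 24 1 bs_a Ns_a 2 4 = true := by decide +kernel
theorem c5_a : ckS5 Cfsg.Lie.chevF4 H22.RCSmall.tabF4 24 1 bs_a Ns_a 2 4 = true := by decide +kernel

/-- the subsystem -/
def sub_a : SubC (coord H22.PoinF4.rcxF4) 4 :=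
  ofCk H22.PoinF4.rcxF4 rfl rfl rfl 4 (by norm_num) c1_a c2_a c3_a c4_a c5_a

def cert_a : List (ℕ × ℕ) := [(1, 0), (3, 1)]

def orb_a : List ℕ := run rm cert_a [1]

theorem orb_len_a : orb_a.length = 3 := by decide +kernel
theorem orb_nodup_a : orb_a.Nodup := by decide +kernel
theorem npos_a : ((List.range 24).filter fun r => pE Cfsg.Lie.chevF4 H22.RCSmall.tabF4 1 (24 + r)).length = 16 := by decide +kernel
theorem vm_a : ∀ m < 4, decide (Odd (∑ i ∈ Finset.range 4, (if Nat.testBit 2 i then H22.RCSmall.matF4 i m else 0))) =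
    Nat.testBit 1 m := by decide +kernel

theorem rowsOk_a : RowsOk sub_a.coord As_a := by
  refine ⟨by decide +kernel, fun i => ⟨?_, fun j => rfl⟩⟩
  have : ∀ i : Fin 4, (As_a.getD i.val []).length = 4 := by decide +kernel
  exact this i

def lva0 : List (List (List ℤ)) := [[[1]], [[-1]]]

theorem chka0 : chk As_a 0 lva0 = true := by decide +kernel

theorem lena0 : lva0.map List.length = [1, 1] := by decide +kernel

def lva1 : List (List (List ℤ)) := [[[0, 1]], [[1, -1]], [[-1, 1]], [[0, -1]]]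

theorem chka1 : chk As_a 1 lva1 = true := by decide +kernel

theorem lena1 : lva1.map List.length = [1, 1, 1, 1] := by decide +kernel

def lva2 : List (List (List ℤ)) := [[[0, 0, 1]], [[0, 1, -1]], [[1, -1, 0]], [[-1, 1, 0]], [[0, -1, 1]], [[0, 0, -1]]]

theorem chka2 : chk As_a 2 lva2 = true := by decide +kernel

theorem lena2 : lva2.map List.length = [1, 1, 1, 1, 1, 1] := by decide +kernel

def lva3 : List (List (List ℤ)) := [[[0, 0, 0, 1]], [[0, 0, 1, -1]], [[0, 1, -1, 0]], [[1, -1, 0, 0]], [[-1, 1, 0, 0]], [[0, -1, 1, 0]], [[0, 0, -1, 1]], [[0, 0, 0, -1]]]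

theorem chka3 : chk As_a 3 lva3 = true := by decide +kernel

theorem lena3 : lva3.map List.length = [1, 1, 1, 1, 1, 1, 1, 1] := by decide +kernel

theorem poin_a (q : ℕ) : P sub_a.comb 4 q = evalP [1, 1, 1, 1, 1, 1, 1, 1] q * evalP [1, 1, 1, 1, 1, 1] q * evalP [1, 1, 1, 1] q * evalP [1, 1] q := by
  have h := P_zero (C := sub_a.comb) q
  have h0 := P_succ sub_a.coord rowsOk_a (by norm_num : 0 < 4) chka0 q
  rw [lena0] at h0
  have h1 := P_succ sub_a.coord rowsOk_a (by norm_num : 1 < 4) chka1 q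
  rw [lena1] at h1
  have h2 := P_succ sub_a.coord rowsOk_a (by norm_num : 2 < 4) chka2 q
  rw [lena2] at h2
  have h3 := P_succ sub_a.coord rowsOk_a (by norm_num : 3 < 4) chka3 q
  rw [lena3] at h3
  rw [h3, h2, h1, h0, h]
  simp only [mul_one, mul_assoc]

/-! ### class b: mask 8, orbit of size 12 -/

def bs_b : List ℕ := [25, 27, 33, 47]
def ws_b : List (List ℕ × ℕ) := [([], 2), ([], 1), ([], 0), ([3, 2, 1, 0, 2, 1, 2], 3)]
def As_b : List (List ℤ) := [[2, -1, 0, 0], [-2, 2, -1, 0], [0, -1, 2, 0], [0, 0, 0, 2]]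
def Ns_b : List (List ℤ) := [[0, 0, 2, -3], [0, 2, 0, -4], [2, 0, 0, -2], [0, 0, 0, 1]]

theorem c1_b : ckS1 Cfsg.Lie.chevF4 H22.RCSmall.tabF4 24 H22.RCSmall.matF4 8 bs_b ws_b As_b Ns_b 4 = true := by decide +kernel
theorem c2_b : ckS2 Cfsg.Lie.chevF4 H22.RCSmall.tabF4 H22.RCSmall.matF4 bs_b ws_b As_b 4 = true := by decide +kernel
theorem c3_b : ckS3 Cfsg.Lie.chevF4 H22.RCSmall.tabF4 bs_b Ns_b 2 4 = true := by decide +kernel
theorem c4_b : ckS4 Cfsg.Lie.chevF4 H22.RCSmall.tabF4 24 8 bs_b Ns_b 2 4 = true := by decide +kernel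
theorem c5_b : ckS5 Cfsg.Lie.chevF4 H22.RCSmall.tabF4 24 8 bs_b Ns_b 2 4 = true := by decide +kernel

/-- the subsystem -/
def sub_b : SubC (coord H22.PoinF4.rcxF4) 4 :=
  ofCk H22.PoinF4.rcxF4 rfl rfl rfl 4 (by norm_num) c1_b c2_b c3_b c4_b c5_b

def cert_b : List (ℕ × ℕ) := [(8, 3), (12, 2), (6, 1), (7, 0), (7, 2), (5, 2), (13, 3), (15, 1), (15, 3), (14, 2), (14, 3)]

def orb_b : List ℕ := run rm cert_b [8]

theorem orb_len_b : orb_b.length = 12 := by decide +kernel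
theorem orb_nodup_b : orb_b.Nodup := by decide +kernel
theorem npos_b : ((List.range 24).filter fun r => pE Cfsg.Lie.chevF4 H22.RCSmall.tabF4 8 (24 + r)).length = 10 := by decide +kernel
theorem vm_b : ∀ m < 4, decide (Odd (∑ i ∈ Finset.range 4, (if Nat.testBit 5 i then H22.RCSmall.matF4 i m else 0))) =
    Nat.testBit 8 m := by decide +kernel

theorem rowsOk_b : RowsOk sub_b.coord As_b := by
  refine ⟨by decide +kernel, fun i => ⟨?_, fun j => rfl⟩⟩
  have : ∀ i : Fin 4, (As_b.getD i.val []).length = 4 := by decide +kernel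
  exact this i

def lvb0 : List (List (List ℤ)) := [[[1]], [[-1]]]

theorem chkb0 : chk As_b 0 lvb0 = true := by decide +kernel

theorem lenb0 : lvb0.map List.length = [1, 1] := by decide +kernel

def lvb1 : List (List (List ℤ)) := [[[0, 1]], [[2, -1]], [[-2, 1]], [[0, -1]]]

theorem chkb1 : chk As_b 1 lvb1 = true := by decide +kernel

theorem lenb1 : lvb1.map List.length = [1, 1, 1, 1] := by decide +kernel

def lvb2 : List (List (List ℤ)) := [[[0, 0, 1]], [[0, 1, -1]], [[2, -1, 0]], [[-2, 1, 0]], [[0, -1, 1]], [[0, 0, -1]]]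

theorem chkb2 : chk As_b 2 lvb2 = true := by decide +kernel

theorem lenb2 : lvb2.map List.length = [1, 1, 1, 1, 1, 1] := by decide +kernel

def lvb3 : List (List (List ℤ)) := [[[0, 0, 0, 1]], [[0, 0, 0, -1]]]

theorem chkb3 : chk As_b 3 lvb3 = true := by decide +kernel

theorem lenb3 : lvb3.map List.length = [1, 1] := by decide +kernel

theorem poin_b (q : ℕ) : P sub_b.comb 4 q = evalP [1, 1] q * evalP [1, 1, 1, 1, 1, 1] q * evalP [1, 1, 1, 1] q * evalP [1, 1] q := by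
  have h := P_zero (C := sub_b.comb) q
  have h0 := P_succ sub_b.coord rowsOk_b (by norm_num : 0 < 4) chkb0 q
  rw [lenb0] at h0
  have h1 := P_succ sub_b.coord rowsOk_b (by norm_num : 1 < 4) chkb1 q
  rw [lenb1] at h1
  have h2 := P_succ sub_b.coord rowsOk_b (by norm_num : 2 < 4) chkb2 q
  rw [lenb2] at h2
  have h3 := P_succ sub_b.coord rowsOk_b (by norm_num : 3 < 4) chkb3 q
  rw [lenb3] at h3
  rw [h3, h2, h1, h0, h]
  simp only [mul_one, mul_assoc]

end H42.InvF4
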