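import Cfsg.Agent.Lib.H42.InvDat
import Cfsg.Agent.Lib.H22.CoxCalc

/-!
Classes of involutions of the torus and orders of their centralisers.
-/

set_option autoImplicit false

namespace H42.InvFin

open H22.RGD H22.Coord H22.RCPack H22.RCCheck H22.RCComb H22.ChevTri H22.ChevRel H22.ChevSys
open H22.ChevMain H22.ChevStd H22.ChevUni H22.ChevTorus H22.Poincare
open H42.InvH H42.InvC H42.InvSub H42.InvOrb H42.InvSys H42.InvDat
open Cfsg.Lie (ChevalleyDatum)
open scoped MatrixGroups Matrix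

theorem neg_one_zpow_congr {F : Type*} [Field F] {a b : ℤ} (h : Even (a - b)) :
    (-1 : F) ^ a = (-1) ^ b := by
  have e : a = (a - b) + b := by ring
  rw [e, zpow_add₀ (neg_ne_zero.2 one_ne_zero), Even.neg_one_zpow h, one_mul]

theorem neg_one_zpow_eq_one_iff {F : Type*} [Field F] (h2F : (2 : F) ≠ 0) (a : ℤ) :
    (-1 : F) ^ a = 1 ↔ Even a := by
  constructor
  · intro h
    by_contra hne
    rw [Int.not_even_iff_odd] at hne
    rw [Odd.neg_one_zpow hne] at h
    apply h2F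
    linear_combination -h
  · intro h; exact Even.neg_one_zpow h

theorem zpow_sum₀ {F ι : Type*} [Field F] {c : F} (hc : c ≠ 0) (s : Finset ι) (f : ι → ℤ) :
    c ^ (∑ i ∈ s, f i) = ∏ i ∈ s, c ^ f i := by
  classical
  induction s using Finset.induction_on with
  | empty => simp
  | insert i s hi ih => rw [Finset.sum_insert hi, Finset.prod_insert hi, zpow_add₀ hc, ih]

variable {D : ChevalleyDatum} {F : Type*} [Field F] (R : Rel D F) (X : RCX D)

/-- `t` acts through the sign character of the mask `b` -/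
def Sgn (t : GL D.Idx F) (b : ℕ) : Prop := ∀ s : Fin D.nroots, ∀ u : F,
  t * xg R (s : ℕ) u * t⁻¹ =
    xg R (s : ℕ) ((-1 : F) ^ (fv (H22.RCComb.coord X) (fb D.rank b) s) * u)

include X in
theorem prodH_conj {c : ℕ → F} (hc : ∀ i < D.rank, c i ≠ 0) (s : Fin D.nroots) (u : F) :
    prodH R c * xg R (s : ℕ) u * (prodH R c)⁻¹ =
      xg R (s : ℕ) ((∏ i ∈ Finset.range D.rank, c i ^ D.cartan i s) * u) := by
  obtain ⟨χ, _, h2, h3⟩ := Hs_char R X.rc ((mem_Hs_iff R).2 ⟨c, hc, rfl⟩)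
  rw [prodH_val R c hc] at h2
  have h4 := congrFun (Matrix.diagonal_injective h2) (Sum.inr s)
  simp only [Sum.elim_inr] at h4
  rw [h3 s s.2 u, h4]

theorem char_mul {c : ℕ → F} (hc : ∀ i < D.rank, c i ≠ 0) (s : Fin D.nroots) :
    ∏ i ∈ Finset.range D.rank, c i ^ D.cartan i s =
      ∏ m : Fin D.rank, (∏ i ∈ Finset.range D.rank, c i ^ D.cartan i (D.simple m)) ^
        (H22.RCComb.coord X).co s m := by
  have e1 : ∀ i ∈ Finset.range D.rank, c i ^ D.cartan i s =
      ∏ m : Fin D.rank, (c i ^ D.cartan i (D.simple m)) ^ (H22.RCComb.coord X).co s m := by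
    intro i hi
    have hi' := Finset.mem_range.1 hi
    rw [X.rc.cartan_eq i hi' s s.2, zpow_sum₀ (hc i hi'), Finset.prod_range]
    refine Finset.prod_congr rfl fun m _ => ?_
    rw [cartan_simple X.rc hi' m.2, ← zpow_mul]
    rfl
  rw [Finset.prod_congr rfl e1, Finset.prod_comm]
  refine Finset.prod_congr rfl fun m _ => ?_
  rw [Finset.prod_zpow]

/-- every involution of the torus has a mask -/
theorem exists_mask {t : GL D.Idx F} (ht : t ∈ Hs R) (h2 : t * t = 1) :
    ∃ b < 2 ^ D.rank, Sgn R X t b := by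
  classical
  obtain ⟨c, hc, rfl⟩ := (mem_Hs_iff R).1 ht
  set χ : ℕ → F := fun s => ∏ i ∈ Finset.range D.rank, c i ^ D.cartan i s with hχ
  have hsq : ∀ m : Fin D.rank, χ (D.simple m) * χ (D.simple m) = 1 := by
    intro m
    have hs := X.rc.simple_lt m m.2
    have h3 := prodH_conj R X hc ⟨D.simple m, hs⟩
    simp only at h3
    have h4 : prodH R c * (prodH R c * xg R (D.simple m) 1 * (prodH R c)⁻¹) * (prodH R c)⁻¹ =
        xg R (D.simple m) 1 := by
      have h5 : (prodH R c)⁻¹ = prodH R c := inv_eq_of_mul_eq_one_left h2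
      rw [h5]
      calc prodH R c * (prodH R c * xg R (D.simple m) 1 * prodH R c) * prodH R c =
          (prodH R c * prodH R c) * xg R (D.simple m) 1 * (prodH R c * prodH R c) := by
            simp only [mul_assoc]
        _ = _ := by rw [h2]; simp
    rw [h3, h3] at h4
    have h6 := xg_inj R X.rc hs h4
    rw [mul_one] at h6
    exact h6
  refine ⟨Nat.ofBits (fun m : Fin D.rank => decide (χ (D.simple m) = -1)), Nat.ofBits_lt_two_pow _, ?_⟩
  intro s u
  rw [prodH_conj R X hc]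
  congr 2
  rw [char_mul X hc]
  unfold fv
  rw [zpow_sum₀ (neg_ne_zero.2 one_ne_zero)]
  refine Finset.prod_congr rfl fun m _ => ?_
  have e : ∏ i ∈ Finset.range D.rank, c i ^ D.cartan i (D.simple m) =
      (-1 : F) ^ (fb D.rank (Nat.ofBits (fun m : Fin D.rank => decide (χ (D.simple m) = -1))) m) := by
    unfold fb
    rw [Nat.testBit_ofBits_lt _ _ m.2]
    by_cases h3 : χ (D.simple m) = -1
    · rw [if_pos (by simpa using h3), zpow_one]; exact h3
    · rw [if_neg (by simpa using h3), zpow_zero]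
      have h4 := hsq m
      have h5 : (χ (D.simple m) - 1) * (χ (D.simple m) + 1) = 0 := by linear_combination h4
      rcases mul_eq_zero.1 h5 with h6 | h6
      · exact sub_eq_zero.1 h6
      · exact absurd (eq_neg_of_add_eq_zero_left h6) h3
  rw [e, ← zpow_mul, mul_comm]

/-- the element of a mask -/
def tv (v : ℕ) : GL D.Idx F := prodH R (fun i => if v.testBit i then (-1 : F) else 1)

theorem tv_ne (v i : ℕ) : (if v.testBit i then (-1 : F) else 1) ≠ 0 := by split_ifs <;> simp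

theorem tv_mem (v : ℕ) : tv R v ∈ Hs R := (mem_Hs_iff R).2 ⟨_, fun i _ => tv_ne v i, rfl⟩

theorem tv_sq (v : ℕ) : tv R v * tv R v = 1 := by
  unfold tv
  rw [prodH_mul R (fun i _ => tv_ne v i) (fun i _ => tv_ne v i), ← prodH_one R]
  congr 1
  funext i
  split_ifs <;> simp

theorem sgn_tv {v b : ℕ} (A : ℕ → ℕ → ℤ) (hA : X.rc.A = A)
    (hv : ∀ m < D.rank, decide (Odd (∑ i ∈ Finset.range D.rank,
      (if Nat.testBit v i then A i m else 0))) = Nat.testBit b m) : Sgn R X (tv R v) b := by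
  intro s u
  unfold tv
  rw [prodH_conj R X (fun i _ => tv_ne v i)]
  congr 2
  have e1 : ∀ i ∈ Finset.range D.rank, (if v.testBit i then (-1 : F) else 1) ^ D.cartan i s =
      (-1 : F) ^ (if v.testBit i then D.cartan i s else 0) := by
    intro i _
    split_ifs <;> simp
  rw [Finset.prod_congr rfl e1, ← zpow_sum₀ (neg_ne_zero.2 one_ne_zero)]
  apply neg_one_zpow_congr
  have e2 : ∑ i ∈ Finset.range D.rank, (if v.testBit i then D.cartan i s else 0) =
      ∑ m : Fin D.rank, (H22.RCComb.coord X).co s m *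
        ∑ i ∈ Finset.range D.rank, (if Nat.testBit v i then A i m else 0) := by
    simp only [Finset.mul_sum]
    rw [Finset.sum_comm]
    refine Finset.sum_congr rfl fun i hi => ?_
    have hi' := Finset.mem_range.1 hi
    by_cases hb : v.testBit i
    · simp only [hb, if_true]
      rw [X.rc.cartan_eq i hi' s s.2, hA, Finset.sum_range]
      refine Finset.sum_congr rfl fun m _ => ?_
      rw [mul_comm]; rfl
    · simp [hb]
  rw [e2]
  unfold fv
  rw [← Finset.sum_sub_distrib]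
  apply Finset.even_sum
  intro m _
  rw [← mul_sub]
  apply Even.mul_left
  have h1 := hv m m.2
  rw [Int.even_sub, ← Int.not_odd_iff_even, ← Int.not_odd_iff_even]
  apply not_congr
  unfold fb
  by_cases hb : b.testBit m
  · rw [hb] at h1
    simp only [hb, if_true]
    exact ⟨fun _ => odd_one, fun _ => of_decide_eq_true h1⟩
  · simp only [hb, Bool.false_eq_true, if_false]
    rw [Bool.not_eq_true] at hb
    rw [hb] at h1
    exact ⟨fun h => absurd h (of_decide_eq_false h1), fun h => absurd h (by simp)⟩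

variable {R X}

theorem Sgn.ne_one {t : GL D.Idx F} {b : ℕ} (h2F : (2 : F) ≠ 0) (h : Sgn R X t b) (hb : b ≠ 0)
    (hb2 : b < 2 ^ D.rank) : t ≠ 1 := by
  rintro rfl
  apply hb
  apply eq_of_bits (l := D.rank) hb2 (by positivity)
  intro m
  have h1 := h ((H22.RCComb.comb X).simple m) 1
  rw [inv_one, mul_one, one_mul] at h1
  have h2 := xg_inj R X.rc ((H22.RCComb.comb X).simple m).2 h1
  rw [mul_one] at h2
  have h3 := (neg_one_zpow_eq_one_iff h2F _).1 h2.symm
  rw [fv_simple] at h3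
  unfold fb at h3
  by_cases h4 : b.testBit m
  · simp [h4] at h3
  · simpa using h4

theorem Sgn.mask_ne {t : GL D.Idx F} {b : ℕ} (h : Sgn R X t b) (ht : t ∈ Hs R) (ht1 : t ≠ 1) : b ≠ 0 := by
  rintro rfl
  apply ht1
  apply eq_one_of_centralises R X.rc ht
  intro s hs
  have h1 := h ⟨s, hs⟩ 1
  have h2 : fv (H22.RCComb.coord X) (fb D.rank 0) ⟨s, hs⟩ = 0 := by
    unfold fv fb; simp
  rw [h2, zpow_zero, one_mul] at h1
  exact mul_inv_eq_iff_eq_mul.1 h1

theorem sgn_conj {t t₀ : GL D.Idx F} (ht : t ∈ Hs R) (ht₀ : t₀ ∈ Hs R) {b b₀ : ℕ}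
    (h : Sgn R X t b) (h₀ : Sgn R X t₀ b₀) {w : Equiv.Perm (Fin D.nroots)}
    (hw : w ∈ (H22.RCComb.comb X).W) (hsg : sg (H22.RCComb.coord X) (fb D.rank b₀) w = b) :
    ∃ n ∈ D.group F, n * t * n⁻¹ = t₀ := by
  obtain ⟨n, hn⟩ := (chevSys R X).exists_rep' hw
  have hng : n ∈ D.group F := by
    rw [← chevSys_Γ R X]; exact (chevSys R X).N_le_Γ hn.1
  refine ⟨n, hng, ?_⟩
  obtain ⟨ε, hε0, hε⟩ := H47.RootCent.Hyp.exists_eps hn
  rw [← mul_inv_eq_one]
  have hH : ∀ {x : GL D.Idx F}, x ∈ Hs R ↔ x ∈ (chevSys R X).H := by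
    intro x; rw [chevSys_H, diagonalSubgroup_eq R X]
  have h1 : n * t * n⁻¹ ∈ Hs R := hH.2 ((chevSys R X).N_conj_H hn.1 (hH.1 ht))
  apply eq_one_of_centralises R X.rc (mul_mem h1 (inv_mem ht₀))
  intro s hs
  -- `s = w r`
  obtain ⟨r, hr⟩ : ∃ r : Fin D.nroots, w r = ⟨s, hs⟩ := ⟨w⁻¹ ⟨s, hs⟩, by simp⟩
  have hpar : (-1 : F) ^ (fv (H22.RCComb.coord X) (fb D.rank b) r) =
      (-1) ^ (fv (H22.RCComb.coord X) (fb D.rank b₀) (w r)) := by
    apply neg_one_zpow_congr
    rw [fv_w _ _ hw]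
    unfold fv
    rw [← Finset.sum_sub_distrib]
    apply Finset.even_sum
    intro m _
    rw [← mul_sub]
    apply Even.mul_left
    have h3 := sg_bit (H22.RCComb.coord X) (fb D.rank b₀) w m
    rw [hsg] at h3
    rw [Int.even_sub, ← Int.not_odd_iff_even, ← Int.not_odd_iff_even]
    apply not_congr
    have h4 : fb D.rank b m = if b.testBit m then 1 else 0 := rfl
    rw [h4, h3]
    change Odd _ ↔ Odd (fv (H22.RCComb.coord X) (fb D.rank b₀) (w ((H22.RCComb.comb X).simple m)))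
    by_cases h5 : Odd (fv (H22.RCComb.coord X) (fb D.rank b₀) (w ((H22.RCComb.comb X).simple m)))
    · simp [h5]
    · simp [h5]
  have e1 : ∀ u, (n * t * n⁻¹) * xg R s u * (n * t * n⁻¹)⁻¹ =
      xg R s ((-1 : F) ^ (fv (H22.RCComb.coord X) (fb D.rank b₀) (w r)) * u) := by
    intro u
    have e2 : xg R s u = n * xg R (r : ℕ) ((ε r)⁻¹ * u) * n⁻¹ := by
      rw [hε r, hr, ← mul_assoc, mul_inv_cancel₀ (hε0 r), one_mul]
    have e3 : (n * t * n⁻¹) * (n * xg R (r : ℕ) ((ε r)⁻¹ * u) * n⁻¹) * (n * t * n⁻¹)⁻¹ =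
        n * (t * xg R (r : ℕ) ((ε r)⁻¹ * u) * t⁻¹) * n⁻¹ := by group
    rw [e2, e3, h r, hε r, hr, hpar, hr]
    congr 1
    have := hε0 r
    field_simp
  have e4 : ∀ u, t₀⁻¹ * xg R s u * t₀ = xg R s ((-1 : F) ^ (fv (H22.RCComb.coord X) (fb D.rank b₀) (w r)) * u) := by
    intro u
    have h5 := h₀ ⟨s, hs⟩ ((-1 : F) ^ (fv (H22.RCComb.coord X) (fb D.rank b₀) (w r)) * u)
    rw [← hr, ← mul_assoc, ← mul_zpow, neg_mul_neg, one_mul, one_zpow, one_mul, hr] at h5
    simp only at h5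
    rw [← h5, hr]; group
  have e5 : (n * t * n⁻¹ * t₀⁻¹) * xg R s 1 * (n * t * n⁻¹ * t₀⁻¹)⁻¹ = xg R s 1 := by
    have e6 : (n * t * n⁻¹ * t₀⁻¹) * xg R s 1 * (n * t * n⁻¹ * t₀⁻¹)⁻¹ =
        (n * t * n⁻¹) * (t₀⁻¹ * xg R s 1 * t₀) * (n * t * n⁻¹)⁻¹ := by group
    rw [e6, e4, e1, ← mul_assoc, ← mul_zpow, neg_mul_neg, one_mul, one_zpow, one_mul]
  exact mul_inv_eq_iff_eq_mul.1 e5

/-! ### orders -/

theorem card_sysS [Fintype F] {q : ℕ} (hq : Fintype.card F = q) {l' : ℕ}
    (S : SubC (H22.RCComb.coord X) l') : Nat.card (sysS R S).Γ =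
      q ^ {r | S.comb.pos r}.ncard * Nat.card (D.diagonalSubgroup F) * P S.comb l' q := by
  classical
  have : Fintype S.comb.W := Fintype.ofFinite _
  have hX : ∀ r, Nat.card ((sysS R S).X r) = q := fun r =>
    H22.ChevOrder.card_rootSubgroup R X.rc hq r.1.2
  have hU : Nat.card (sysS R S).U = q ^ {r | S.comb.pos r}.ncard := by
    obtain ⟨w, hw, hwp⟩ := S.coord.exists_longest
    have h1 : (sysS R S).Um w = (sysS R S).U := by
      apply le_antisymm ((sysS R S).Um_le_U w)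
      exact (sysS R S).U_le fun r hr => (sysS R S).X_le_Um hr (hwp r hr)
    rw [← h1, (sysS R S).card_Um_const hX hw]
    congr 1
    unfold RootComb.len
    congr 1
    ext r
    exact ⟨fun h => h.1, fun h => ⟨h, hwp r h⟩⟩
  rw [(sysS R S).card_Γ, (sysS R S).card_B, hU, sysS_H]
  congr 1
  unfold P
  have h2 : ∀ w : S.comb.W, Nat.card ((sysS R S).Um (w : Equiv.Perm _)) =
      q ^ S.comb.len (w : Equiv.Perm _) := fun w => (sysS R S).card_Um_const hX w.2
  rw [Finset.sum_congr rfl (fun w _ => h2 w)]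
  symm
  apply Finset.sum_subtype
  intro x
  rw [Set.Finite.mem_toFinset, SetLike.mem_coe, Wt_top]

theorem card_centralizer {G : Type*} [Group G] (K : Subgroup G) (s : K) :
    Nat.card (Subgroup.centralizer ({s} : Set K)) =
      Nat.card (K ⊓ Subgroup.centralizer {(s : G)} : Subgroup G) := by
  refine Nat.card_congr ⟨fun x => ⟨x.1.1, x.1.2, ?_⟩, fun x => ⟨⟨x.1, x.2.1⟩, ?_⟩, fun x => rfl,
    fun x => rfl⟩
  · have h := Subgroup.mem_centralizer_singleton_iff.1 x.2
    have : (x.1.1 : G) ∈ Subgroup.centralizer {(s : G)} :=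
      Subgroup.mem_centralizer_singleton_iff.2 (congrArg Subtype.val h)
    exact this
  · have h : x.1 ∈ Subgroup.centralizer {(s : G)} := x.2.2
    exact Subgroup.mem_centralizer_singleton_iff.2
      (Subtype.ext (Subgroup.mem_centralizer_singleton_iff.1 h))

theorem Sgn.card_cent [Fintype F] {q : ℕ} (hq : Fintype.card F = q) (Z : Lex X.rc)
    (h2F : (2 : F) ≠ 0) {l' b : ℕ} (S : SubC (H22.RCComb.coord X) l') (hf : S.f = fb D.rank b)
    (hSt : S.WS = S.St) {t : GL D.Idx F} (ht : t ∈ Hs R) (h : Sgn R X t b) :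
    Nat.card (D.group F ⊓ Subgroup.centralizer {t} : Subgroup (GL D.Idx F)) =
      q ^ {r | S.comb.pos r}.ncard * Nat.card (D.diagonalSubgroup F) * P S.comb l' q := by
  rw [cent_eq R S (t := t) (χ := fun s => if hs : s < D.nroots then
      (-1 : F) ^ (fv (H22.RCComb.coord X) (fb D.rank b) ⟨s, hs⟩) else 1)
    (by rw [diagonalSubgroup_eq R X]; exact ht) _ _ Z hSt, card_sysS hq S]
  · intro s hs u
    rw [dif_pos hs]
    exact h ⟨s, hs⟩ u
  · intro r
    simp only [r.2, dif_pos, Fin.eta]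
    rw [neg_one_zpow_eq_one_iff h2F]
    show _ ↔ Even (fv _ S.f r)
    rw [hf]

theorem npos_eq {T h b l' : ℕ} (S : SubC (H22.RCComb.coord X) l') (hf : S.f = fb D.rank b)
    (hh : X.rc.half = h) (hco : X.rc.co = co T D.rank) :
    {r | S.comb.pos r}.ncard = ((List.range h).filter fun r => pE D T b (h + r)).length := by
  have hn : D.nroots = 2 * h := by rw [← hh]; exact X.rc.nroots_eq
  have e1 : ((List.range h).filter fun r => pE D T b (h + r)).length =
      Nat.card {i : ℕ // i ∈ (List.range h).filter fun r => pE D T b (h + r)} := by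
    rw [Nat.card_eq_fintype_card, Fintype.card_of_subtype ((List.range h).filter
      fun r => pE D T b (h + r)).toFinset (fun x => List.mem_toFinset), List.toFinset_card_of_nodup]
    exact List.nodup_range.filter _
  rw [e1]
  refine Nat.card_congr ⟨fun r => ⟨r.1.1.1 - h, ?_⟩, fun i => ⟨⟨⟨h + i.1, ?_⟩, ?_⟩, ?_⟩, ?_, ?_⟩
  · obtain ⟨⟨r, hr⟩, hp⟩ := r
    have hp' : h ≤ r.1 := by rw [← hh]; exact hp
    have := r.2
    rw [List.mem_filter, List.mem_range]
    refine ⟨by simp only; omega, ?_⟩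
    simp only
    rw [show h + (r.1 - h) = r.1 by omega, pE_iff X hco, ← hf]
    exact hr
  · have := (List.mem_range.1 (List.mem_filter.1 i.2).1)
    omega
  · have h3 := (List.mem_filter.1 i.2).2
    have h4 := (List.mem_range.1 (List.mem_filter.1 i.2).1)
    have h5 := (pE_iff X hco (b := b) ⟨h + i.1, by omega⟩).1 h3
    rw [← hf] at h5
    exact h5
  · show X.rc.half ≤ h + i.1
    omega
  · rintro ⟨⟨r, hr⟩, hp⟩
    have hp' : h ≤ r.1 := by rw [← hh]; exact hp
    apply Subtype.ext; apply Subtype.ext; apply Fin.ext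
    simp only; omega
  · rintro ⟨i, hi⟩
    apply Subtype.ext
    simp only; omega

/-- the stabiliser from the orbit count -/
theorem WS_eq_of {Φ : Type*} [Finite Φ] {l : ℕ} {C : RootComb Φ (Fin l)} {K : CoordSys C} {l' : ℕ}
    (S : SubC K l') (O : List ℕ) (hO : O.Nodup) (hO0 : 0 < O.length)
    (h : ∀ b ∈ O, ∃ w ∈ C.W, sg K S.f w = b)
    (hc : P C l 1 = O.length * P S.comb l' 1) : S.WS = S.St := by
  apply S.WS_eq_St
  have h1 := card_mul_le K S O hO h
  rw [H22.CoxCalc.card_W, hc, ← H22.CoxCalc.card_W] at h1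
  exact Nat.le_of_mul_le_mul_left h1 hO0

end H42.InvFin
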