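import Cfsg.Agent.Lib.H42.InvDat

/-!
Subsystem data for the involutions in type G2.
-/

set_option autoImplicit false

namespace H42.InvG2

open H22.RGD H22.Coord H22.RCPack H22.RCCheck H22.RCComb H22.Poincare
open H42.InvSub H42.InvOrb H42.InvDat

/-- parities of the Cartan matrix -/
def rm : List ℕ := [2, 1]

theorem rmOk : RowsB (coord H22.PoinG2.rcxG2) rm := by
  have : ∀ i : Fin 2, rm.getD i 0 < 2 ^ 2 ∧ ∀ m : Fin 2, (rm.getD i 0).testBit m =
      decide (Odd (H22.RCSmall.matG2 i m)) := by decide +kernel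
  exact this

/-! ### class a: mask 1, orbit of size 3 -/

def bs_a : List ℕ := [6, 9]
def ws_a : List (List ℕ × ℕ) := [([], 1), ([0, 1], 0)]
def As_a : List (List ℤ) := [[2, 0], [0, 2]]
def Ns_a : List (List ℤ) := [[-1, 2], [1, 0]]

theorem c1_a : ckS1 Cfsg.Lie.chevG2 H22.RCSmall.tabG2 6 H22.RCSmall.matG2 1 bs_a ws_a As_a Ns_a 2 = true := by decide +kernel
theorem c2_a : ckS2 Cfsg.Lie.chevG2 H22.RCSmall.tabG2 H22.RCSmall.matG2 bs_a ws_a As_a 2 = true := by decide +kernel
theorem c3_a : ckS3 Cfsg.Lie.chevG2 H22.RCSmall.tabG2 bs_a Ns_a 2 2 = true := by decide +kernel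
theorem c4_a : ckS4 Cfsg.Lie.chevG2 H22.RCSmall.tabG2 6 1 bs_a Ns_a 2 2 = true := by decide +kernel
theorem c5_a : ckS5 Cfsg.Lie.chevG2 H22.RCSmall.tabG2 6 1 bs_a Ns_a 2 2 = true := by decide +kernel

/-- the subsystem -/
def sub_a : SubC (coord H22.PoinG2.rcxG2) 2 :=
  ofCk H22.PoinG2.rcxG2 rfl rfl rfl 2 (by norm_num) c1_a c2_a c3_a c4_a c5_a

def cert_a : List (ℕ × ℕ) := [(1, 0), (3, 1)]

def orb_a : List ℕ := run rm cert_a [1]

theorem orb_len_a : orb_a.length = 3 := by decide +kernel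
theorem orb_nodup_a : orb_a.Nodup := by decide +kernel
theorem npos_a : ((List.range 6).filter fun r => pE Cfsg.Lie.chevG2 H22.RCSmall.tabG2 1 (6 + r)).length = 2 := by decide +kernel
theorem vm_a : ∀ m < 2, decide (Odd (∑ i ∈ Finset.range 2, (if Nat.testBit 2 i then H22.RCSmall.matG2 i m else 0))) =
    Nat.testBit 1 m := by decide +kernel

theorem rowsOk_a : RowsOk sub_a.coord As_a := by
  refine ⟨by decide +kernel, fun i => ⟨?_, fun j => rfl⟩⟩
  have : ∀ i : Fin 2, (As_a.getD i.val []).length = 2 := by decide +kernel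
  exact this i

def lva0 : List (List (List ℤ)) := [[[1]], [[-1]]]

theorem chka0 : chk As_a 0 lva0 = true := by decide +kernel

theorem lena0 : lva0.map List.length = [1, 1] := by decide +kernel

def lva1 : List (List (List ℤ)) := [[[0, 1]], [[0, -1]]]

theorem chka1 : chk As_a 1 lva1 = true := by decide +kernel

theorem lena1 : lva1.map List.length = [1, 1] := by decide +kernel

theorem poin_a (q : ℕ) : P sub_a.comb 2 q = evalP [1, 1] q * evalP [1, 1] q := by
  have h := P_zero (C := sub_a.comb) q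
  have h0 := P_succ sub_a.coord rowsOk_a (by norm_num : 0 < 2) chka0 q
  rw [lena0] at h0
  have h1 := P_succ sub_a.coord rowsOk_a (by norm_num : 1 < 2) chka1 q
  rw [lena1] at h1
  rw [h1, h0, h]
  simp only [mul_one, mul_assoc]

end H42.InvG2
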