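import Cfsg.Agent.Lib.H42.InvCls
import Cfsg.Agent.Lib.H42.InvG2
import Cfsg.Agent.Lib.H40.SL2Tori

/-!
The centraliser of an involution in `G₂(q)`, `q` odd: two commuting `SL(2, q)`.
-/

set_option autoImplicit false

namespace H42.InvG2c

open Matrix H23.SL2Hom

section abstract_part

variable {F : Type*} [Field F] {G : Type*} [Group G]

/-- the central involution of `SL(2, F)` -/
def m1 : Matrix.SpecialLinearGroup (Fin 2) F := ⟨!![-1, 0; 0, -1], by simp⟩

theorem central {A : Matrix.SpecialLinearGroup (Fin 2) F}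
    (h : ∀ B : Matrix.SpecialLinearGroup (Fin 2) F, A * B = B * A) : A = 1 ∨ A = m1 := by
  have h1 := h (xm 1)
  have h2 := h (ym 1)
  have e1 := congrFun (congrFun (congrArg Subtype.val h1) 0) 0
  have e2 := congrFun (congrFun (congrArg Subtype.val h1) 0) 1
  have e3 := congrFun (congrFun (congrArg Subtype.val h2) 0) 0
  have f1 := (mul_e A (xm 1) 0 0).symm.trans (e1.trans (mul_e (xm 1) A 0 0))
  have f2 := (mul_e A (xm 1) 0 1).symm.trans (e2.trans (mul_e (xm 1) A 0 1))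
  have f3 := (mul_e A (ym 1) 0 0).symm.trans (e3.trans (mul_e (ym 1) A 0 0))
  simp only [xm00, xm01, xm10, xm11, ym00, ym01, ym10] at f1 f2 f3
  have g1 : A 1 0 = 0 := by linear_combination -f1
  have g2 : A 0 0 = A 1 1 := by linear_combination f2
  have g3 : A 0 1 = 0 := by linear_combination f3
  have hdet : A 0 0 * A 1 1 - A 0 1 * A 1 0 = 1 := by
    have := A.2; rwa [Matrix.det_fin_two] at this
  rw [g1, g3, ← g2] at hdet
  have h3 : (A 0 0 - 1) * (A 0 0 + 1) = 0 := by linear_combination hdet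
  rcases mul_eq_zero.1 h3 with h4 | h4
  · left
    have h5 : A 0 0 = 1 := sub_eq_zero.1 h4
    ext i j
    fin_cases i <;> fin_cases j
    · simp [h5]
    · simp [g3]
    · simp [g1]
    · simp [← g2, h5]
  · right
    have h5 : A 0 0 = -1 := eq_neg_of_add_eq_zero_left h4
    ext i j
    fin_cases i <;> fin_cases j
    · show A 0 0 = -1
      exact h5
    · show A 0 1 = 0
      exact g3
    · show A 1 0 = 0
      exact g1
    · show A 1 1 = -1
      rw [← g2, h5]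

theorem m1_sq : (m1 : Matrix.SpecialLinearGroup (Fin 2) F) * m1 = 1 := by
  ext i j
  rw [mul_e]
  have a : (m1 : Matrix.SpecialLinearGroup (Fin 2) F) 0 0 = -1 := rfl
  have b : (m1 : Matrix.SpecialLinearGroup (Fin 2) F) 0 1 = 0 := rfl
  have c : (m1 : Matrix.SpecialLinearGroup (Fin 2) F) 1 0 = 0 := rfl
  have d : (m1 : Matrix.SpecialLinearGroup (Fin 2) F) 1 1 = -1 := rfl
  fin_cases i <;> fin_cases j <;> simp [a, b, c, d]

theorem m1_eq : (m1 : Matrix.SpecialLinearGroup (Fin 2) F) = H xm ym (-1) := by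
  obtain ⟨k1, k2, k3, k4⟩ := eH (neg_ne_zero.2 (one_ne_zero (α := F)))
  ext i j
  fin_cases i <;> fin_cases j
  · exact k1.symm
  · exact k2.symm
  · exact k3.symm
  · refine Eq.trans ?_ k4.symm
    show (-1 : F) = (-1)⁻¹
    norm_num

theorem abs [Fintype F] [Finite G] {t : G} (ht1 : t ≠ 1) (φ ψ : Matrix.SpecialLinearGroup (Fin 2) F →* G)
    (hφ : Function.Injective φ) (hψ : Function.Injective ψ) (hc : ∀ A B, Commute (φ A) (ψ B))
    (h1 : φ m1 = t) (h2 : ψ m1 = t)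
    (hcard : Nat.card (Subgroup.centralizer ({t} : Set G)) =
      Fintype.card F ^ 2 * (Fintype.card F ^ 2 - 1) ^ 2) :
    ∃ L₁ L₂ : Subgroup G, Nonempty (L₁ ≃* Matrix.SpecialLinearGroup (Fin 2) F) ∧
      Nonempty (L₂ ≃* Matrix.SpecialLinearGroup (Fin 2) F) ∧ (∀ x ∈ L₁, ∀ y ∈ L₂, x * y = y * x) ∧
      L₁ ⊓ L₂ = Subgroup.zpowers t ∧ L₁ ⊔ L₂ ≤ Subgroup.centralizer ({t} : Set G) ∧
      (L₁ ⊔ L₂).relIndex (Subgroup.centralizer ({t} : Set G)) = 2 := by
  have hinf : φ.range ⊓ ψ.range = Subgroup.zpowers t := by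
    apply le_antisymm
    · rintro x ⟨⟨A, rfl⟩, ⟨B, hB⟩⟩
      have hA : A = 1 ∨ A = m1 := by
        apply central
        intro A'
        apply hφ
        rw [map_mul, map_mul, ← hB]
        exact (hc A' B).symm
      rcases hA with rfl | rfl
      · rw [map_one]; exact one_mem _
      · rw [h1]; exact Subgroup.mem_zpowers t
    · rw [Subgroup.zpowers_le]
      exact ⟨⟨m1, h1⟩, ⟨m1, h2⟩⟩
  have hle : φ.range ⊔ ψ.range ≤ Subgroup.centralizer ({t} : Set G) := by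
    rw [sup_le_iff]
    constructor
    · rintro _ ⟨A, rfl⟩
      rw [Subgroup.mem_centralizer_singleton_iff, ← h2]
      exact hc A m1
    · rintro _ ⟨B, rfl⟩
      rw [Subgroup.mem_centralizer_singleton_iff, ← h1]
      exact (hc m1 B).symm
  refine ⟨φ.range, ψ.range, ⟨(MonoidHom.ofInjective hφ).symm⟩, ⟨(MonoidHom.ofInjective hψ).symm⟩,
    ?_, hinf, hle, ?_⟩
  · rintro _ ⟨A, rfl⟩ _ ⟨B, rfl⟩
    exact hc A B
  · -- counting
    have ht2 : t ^ 2 = 1 := by rw [← h1, ← map_pow, pow_two, m1_sq, map_one]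
    have hord : orderOf t = 2 := orderOf_eq_prime ht2 ht1
    have hz : Nat.card (Subgroup.zpowers t) = 2 := by rw [Nat.card_zpowers, hord]
    set Φ := φ.noncommCoprod ψ hc with hΦ
    have hker : Nat.card Φ.ker = 2 := by
      refine Eq.trans ?_ hz
      rw [← hinf]
      symm
      refine Nat.card_congr (Equiv.ofBijective
        (fun x : (φ.range ⊓ ψ.range : Subgroup G) => (⟨(Classical.choose x.2.1, (Classical.choose x.2.2)⁻¹), by
          rw [MonoidHom.mem_ker, hΦ, MonoidHom.noncommCoprod_apply]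
          simp only [map_inv]
          rw [Classical.choose_spec x.2.1, Classical.choose_spec x.2.2, mul_inv_cancel]⟩ : Φ.ker)) ⟨?_, ?_⟩)
      · intro x y hxy
        have e1 := congrArg (fun z : Φ.ker => z.1.1) hxy
        simp only at e1
        apply Subtype.ext
        rw [← Classical.choose_spec x.2.1, ← Classical.choose_spec y.2.1, e1]
      · rintro ⟨⟨A, B⟩, hAB⟩
        rw [MonoidHom.mem_ker, hΦ, MonoidHom.noncommCoprod_apply] at hAB
        simp only at hAB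
        have e2 : φ A = ψ B⁻¹ := by rw [map_inv]; exact eq_inv_of_mul_eq_one_left hAB
        refine ⟨⟨φ A, ⟨A, rfl⟩, ⟨B⁻¹, e2.symm⟩⟩, ?_⟩
        apply Subtype.ext
        simp only
        apply Prod.ext
        · simp only
          apply hφ
          exact Classical.choose_spec (p := fun z => φ z = φ A) _
        · simp only
          rw [inv_eq_iff_eq_inv]
          apply hψ
          exact (Classical.choose_spec (p := fun z => ψ z = φ A) _).trans e2
    have hrange : Φ.range = φ.range ⊔ ψ.range := MonoidHom.noncommCoprod_range _ _ _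
    have e3 : Nat.card Φ.ker * Nat.card Φ.range =
        Nat.card (Matrix.SpecialLinearGroup (Fin 2) F × Matrix.SpecialLinearGroup (Fin 2) F) := by
      rw [← Subgroup.index_ker Φ, Subgroup.card_mul_index]
    rw [hker, hrange, Nat.card_prod, H40.SL2Tori.card_SL2] at e3
    have e4 : Nat.card (φ.range ⊔ ψ.range : Subgroup G) *
        (φ.range ⊔ ψ.range).relIndex (Subgroup.centralizer ({t} : Set G)) =
        Nat.card (Subgroup.centralizer ({t} : Set G)) := by
      have h3 := Subgroup.relIndex_mul_relIndex (⊥ : Subgroup G) (φ.range ⊔ ψ.range)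
        (Subgroup.centralizer ({t} : Set G)) bot_le hle
      rwa [Subgroup.relIndex_bot_left, Subgroup.relIndex_bot_left] at h3
    rw [hcard] at e4
    set q := Fintype.card F with hq
    have hq1 : 1 < q := Fintype.one_lt_card
    have e5 : q ^ 2 - 1 = (q - 1) * (q + 1) := by
      have := Nat.sq_sub_sq q 1
      rw [one_pow] at this
      rw [this, mul_comm]
    rw [e5] at e4
    set N := Nat.card (φ.range ⊔ ψ.range : Subgroup G) with hN
    have hNpos : 0 < N := Nat.card_pos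
    apply Nat.eq_of_mul_eq_mul_left hNpos
    rw [e4, mul_comm N 2, e3]
    ring

end abstract_part

section chev

open H22.RGD H22.Coord H22.RCPack H22.RCCheck H22.RCComb H22.ChevTri H22.ChevRel H22.ChevSys
open H22.ChevMain H22.ChevStd H22.ChevUni H22.ChevTorus H22.Poincare
open H42.InvH H42.InvC H42.InvSub H42.InvOrb H42.InvSys H42.InvDat H42.InvFin H42.InvCls
open Cfsg.Lie (ChevalleyDatum)

variable {D : ChevalleyDatum} {F : Type*} [Field F] (R : H22.ChevRel.Rel D F) (X : RCX D)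

include X in
theorem hg_one (h : ∀ i : Fin D.rank, ∃ s : Fin D.nroots, D.cartan i s = 1 ∨ D.cartan i s = -1)
    (r : Fin D.nroots) {a : F} (ha : a ≠ 0) (h1 : hg R (r : ℕ) a = 1) : a = 1 := by
  obtain ⟨L, i, hL, ε, hε, _, hn⟩ := exists_ng_conj R X r
  have h2 : ng R (D.simple i) (ε * a) * ng R (D.simple i) (ε * -1) = 1 := by
    rw [hg_def, hn, hn] at h1
    have : ng R (D.simple i) (ε * a) * ng R (D.simple i) (ε * -1) =
        (nsw R L)⁻¹ * (nsw R L * ng R (D.simple i) (ε * a) * (nsw R L)⁻¹ *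
          (nsw R L * ng R (D.simple i) (ε * -1) * (nsw R L)⁻¹)) * nsw R L := by group
    rw [this, h1]; group
  have h3 : hs R (i : ℕ) a = 1 := by
    unfold hs
    rw [hg_def]
    rcases hε with rfl | rfl
    · simpa using h2
    · rw [neg_one_mul, neg_one_mul, _root_.neg_neg] at h2
      have h4 : ng R (D.simple i) (-a) = ng R (D.simple i) (-1) := by
        rw [← ng_inv R _ (1 : F)]; exact eq_inv_of_mul_eq_one_left h2
      have h5 : ng R (D.simple i) a = ng R (D.simple i) 1 := by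
        have := congrArg (fun x => x⁻¹) h4
        simp only [ng_inv, _root_.neg_neg] at this
        exact this
      rw [h5, ← ng_inv R _ (1 : F), mul_inv_cancel]
  obtain ⟨s, hs'⟩ := h i
  have h4 := hs_conj R i.2 ha s.2 X.rc (1 : F)
  rw [h3, inv_one, mul_one, one_mul, mul_one] at h4
  have h5 := xg_inj R X.rc s.2 h4
  rcases hs' with h6 | h6
  · rw [h6, zpow_one] at h5; exact h5.symm
  · rw [h6, _root_.zpow_neg_one] at h5
    rw [← inv_inv a, ← h5, inv_one]

variable {X}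

theorem φ_N {r : ℕ} {φ : Matrix.SpecialLinearGroup (Fin 2) F →* GL D.Idx F}
    (hx : ∀ u, φ (xm u) = xg R r u) (hy : ∀ u, φ (ym u) = xg R (D.neg r) u) (c : F) :
    φ (N xm ym c) = ng R r c := by
  unfold N
  rw [map_mul, map_mul, hx, hy, ng_def]

theorem φ_H {r : ℕ} {φ : Matrix.SpecialLinearGroup (Fin 2) F →* GL D.Idx F}
    (hx : ∀ u, φ (xm u) = xg R r u) (hy : ∀ u, φ (ym u) = xg R (D.neg r) u) (c : F) :
    φ (H xm ym c) = hg R r c := by
  unfold H
  rw [map_mul, φ_N R hx hy, φ_N R hx hy, hg_def]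

theorem φ_inj (h : ∀ i : Fin D.rank, ∃ s : Fin D.nroots, D.cartan i s = 1 ∨ D.cartan i s = -1)
    {l' : ℕ} (S : SubC (H22.RCComb.coord X) l') (j : Fin l')
    {φ : Matrix.SpecialLinearGroup (Fin 2) F →* GL D.Idx F}
    (hx : ∀ u, φ (xm u) = xg R (S.β j : ℕ) u) (hy : ∀ u, φ (ym u) = xg R (D.neg (S.β j : ℕ)) u) :
    Function.Injective φ := by
  rw [injective_iff_map_eq_one]
  intro A hA
  have hdet : A 0 0 * A 1 1 - A 0 1 * A 1 0 = 1 := by
    have := A.2; rwa [Matrix.det_fin_two] at this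
  by_cases h10 : A 1 0 = 0
  · have e1 : A = xm (A 0 0 * A 0 1) * H xm ym (A 0 0) := by
      conv_lhs => rw [← Phi_self A]
      unfold Phi; rw [if_pos h10]
    rw [h10] at hdet
    have h0 : A 0 0 ≠ 0 := by intro h1; rw [h1] at hdet; simp at hdet
    have e2 : xg R (S.β j : ℕ) (A 0 0 * A 0 1) * hg R (S.β j : ℕ) (A 0 0) = 1 := by
      rw [← hx, ← φ_H R hx hy, ← map_mul, ← e1, hA]
    have hH : hg R (S.β j : ℕ) (A 0 0) ∈ (chevSys R X).H := by
      rw [chevSys_H, diagonalSubgroup_eq R X]; exact hg_mem_Hs R X (S.β j) h0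
    have hU : xg R (S.β j : ℕ) (A 0 0 * A 0 1) ∈ (chevSys R X).U :=
      (chevSys R X).X_le_U (S.hβp j) (xg_mem R _ _)
    have e3 : xg R (S.β j : ℕ) (A 0 0 * A 0 1) = 1 := by
      apply (chevSys R X).eq_one_of_mem_U_H hU
      rw [eq_inv_of_mul_eq_one_left e2]
      exact inv_mem hH
    rw [e3, one_mul] at e2
    have e4 := hg_one R X h (S.β j) h0 e2
    have e5 : A 0 0 * A 0 1 = 0 := by
      rw [← xg_zero R (S.β j : ℕ)] at e3
      exact xg_inj R X.rc (S.β j).2 e3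
    have e6 : A 0 1 = 0 := by
      rcases mul_eq_zero.1 e5 with h1 | h1
      · exact absurd h1 h0
      · exact h1
    have e7 : A 1 1 = 1 := by rw [e4] at hdet; linear_combination hdet
    ext a b
    fin_cases a <;> fin_cases b
    · exact e4
    · exact e6
    · exact h10
    · exact e7
  · exfalso
    have e1 : A = xm (A 0 0 / A 1 0) * N xm ym (-(A 1 0)⁻¹) * xm (A 1 1 / A 1 0) := by
      conv_lhs => rw [← Phi_self A]
      unfold Phi; rw [if_neg h10]
    have hc : -(A 1 0)⁻¹ ≠ 0 := neg_ne_zero.2 (inv_ne_zero h10)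
    have e2 : xg R (S.β j : ℕ) (A 0 0 / A 1 0) * ng R (S.β j : ℕ) (-(A 1 0)⁻¹) *
        xg R (S.β j : ℕ) (A 1 1 / A 1 0) = 1 := by
      rw [← hx, ← hx, ← φ_N R hx hy, ← map_mul, ← map_mul, ← e1, hA]
    have e3 : ng R (S.β j : ℕ) (-(A 1 0)⁻¹) =
        xg R (S.β j : ℕ) (-(A 0 0 / A 1 0) + -(A 1 1 / A 1 0)) := by
      rw [← xg_mul, ← xg_inv, ← xg_inv]
      have : ng R (S.β j : ℕ) (-(A 1 0)⁻¹) = (xg R (S.β j : ℕ) (A 0 0 / A 1 0))⁻¹ *
          (xg R (S.β j : ℕ) (A 0 0 / A 1 0) * ng R (S.β j : ℕ) (-(A 1 0)⁻¹) *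
        xg R (S.β j : ℕ) (A 1 1 / A 1 0)) * (xg R (S.β j : ℕ) (A 1 1 / A 1 0))⁻¹ := by group
      rw [this, e2]; group
    have h4 := (rep_ngβ R S j hc).2.2 (S.β j)
    rw [e3, S.s_β j] at h4
    have h4' := (cj_eq_self_of_mem (K := (chevSys R X).X (S.β j)) (xg_mem R (S.β j : ℕ)
      (-(A 0 0 / A 1 0) + -(A 1 1 / A 1 0)))).symm.trans h4
    have h5 := (chevSys R X).X_inj h4'
    have h6 := (H22.RCComb.comb X).not_pos_neg _ (S.hβp j)
    rw [← h5] at h6
    exact h6 (S.hβp j)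

theorem commute_φ {r s : ℕ} {φ ψ : Matrix.SpecialLinearGroup (Fin 2) F →* GL D.Idx F}
    (hx : ∀ u, φ (xm u) = xg R r u) (hy : ∀ u, φ (ym u) = xg R (D.neg r) u)
    (kx : ∀ u, ψ (xm u) = xg R s u) (ky : ∀ u, ψ (ym u) = xg R (D.neg s) u)
    (h : ∀ a ∈ [r, D.neg r], ∀ b ∈ [s, D.neg s], ∀ u v, Commute (xg R a u) (xg R b v))
    (A B : Matrix.SpecialLinearGroup (Fin 2) F) : Commute (φ A) (ψ B) := by
  have hA : A ∈ Subgroup.closure (Set.range (xm (F := F)) ∪ Set.range ym) := by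
    rw [H42.InvSL.closure_xy]; trivial
  have hB : B ∈ Subgroup.closure (Set.range (xm (F := F)) ∪ Set.range ym) := by
    rw [H42.InvSL.closure_xy]; trivial
  induction hA using Subgroup.closure_induction with
  | one => rw [map_one]; exact Commute.one_left _
  | mul x y _ _ h1 h2 => rw [map_mul]; exact h1.mul_left h2
  | inv x _ h1 => rw [map_inv]; exact h1.inv_left
  | mem x hx' =>
    have hx'' : ∃ a ∈ [r, D.neg r], ∃ u, φ x = xg R a u := by
      rcases hx' with ⟨u, rfl⟩ | ⟨u, rfl⟩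
      · exact ⟨r, by simp, u, hx u⟩
      · exact ⟨_, by simp, u, hy u⟩
    obtain ⟨a, ha, u, hu⟩ := hx''
    rw [hu]
    induction hB using Subgroup.closure_induction with
    | one => rw [map_one]; exact Commute.one_right _
    | mul x y _ _ h1 h2 => rw [map_mul]; exact h1.mul_right h2
    | inv x _ h1 => rw [map_inv]; exact h1.inv_right
    | mem y hy' =>
      rcases hy' with ⟨v, rfl⟩ | ⟨v, rfl⟩
      · rw [kx]; exact h a ha s (by simp) u v
      · rw [ky]; exact h a ha _ (by simp) u v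

theorem commute_of_terms {r s : ℕ} (hr : r < D.nroots) (hs : s < D.nroots) (h1 : s ≠ r) (h2 : s ≠ D.neg r)
    (h : D.commTerms r s = []) (u v : F) : Commute (xg R r u) (xg R s v) := by
  have h3 := comm_g R hr hs h1 h2 u v
  unfold ChevalleyDatum.commWord at h3
  rw [h] at h3
  have h4 : wg R (List.map (fun c : ℕ × ℕ × ℕ × ℤ => (c.1, (c.2.2.2 : F) * u ^ c.2.1 * v ^ c.2.2.1)) []) = 1 := rfl
  simp only [List.map_nil] at h3
  rw [show wg R ([] : List (ℕ × F)) = 1 from rfl, mul_one] at h3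
  exact h3.symm

theorem eq_of_sgn {t t' : GL D.Idx F} (ht : t ∈ Hs R) (ht' : t' ∈ Hs R) {b : ℕ}
    (h : Sgn R X t b) (h' : Sgn R X t' b) : t = t' := by
  have h1 : t'⁻¹ * t = 1 := by
    apply eq_one_of_centralises R X.rc (mul_mem (inv_mem ht') ht)
    intro s hs
    have h2 := h ⟨s, hs⟩ 1
    have h3 := h' ⟨s, hs⟩ 1
    rw [← h2] at h3
    simp only at h3
    have h4 : t'⁻¹ * t * xg R s 1 = t'⁻¹ * (t * xg R s 1 * t⁻¹) * t := by group
    rw [h4, ← h3]; group
  exact (inv_mul_eq_one.1 h1).symm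

end chev

section g2

open H22.RGD H22.Coord H22.RCPack H22.RCCheck H22.RCComb H22.ChevTri H22.ChevRel H22.ChevSys
open H22.ChevMain H22.ChevStd H22.ChevUni H22.ChevTorus H22.Poincare
open H42.InvH H42.InvC H42.InvSub H42.InvOrb H42.InvSys H42.InvDat H42.InvFin H42.InvCls

variable {F : Type*} [Field F] (R : H22.ChevRel.Rel Cfsg.Lie.chevG2 F)

theorem hsgn : Sgn R H22.PoinG2.rcxG2 (tv R 2) 1 :=
  sgn_tv R H22.PoinG2.rcxG2 H22.RCSmall.matG2 rfl H42.InvG2.vm_a

theorem horb : ∀ b ∈ H42.InvG2.orb_a, ∃ w ∈ (comb H22.PoinG2.rcxG2).W,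
    sg (coord H22.PoinG2.rcxG2) (fb Cfsg.Lie.chevG2.rank 1) w = b := by
  refine run_spec (coord H22.PoinG2.rcxG2) H42.InvG2.rmOk rfl (fb Cfsg.Lie.chevG2.rank 1)
    H42.InvG2.cert_a [1] ?_
  intro b' hb'
  rw [List.mem_singleton] at hb'
  subst hb'
  exact ⟨1, one_mem _, sg_one _ (by rw [show Cfsg.Lie.chevG2.rank = 2 from rfl]; norm_num)⟩

theorem hcov : ∀ b < 2 ^ 2, b ≠ 0 → b ∈ H42.InvG2.orb_a := by decide +kernel

theorem hcard : P (comb H22.PoinG2.rcxG2) 2 1 =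
    H42.InvG2.orb_a.length * P H42.InvG2.sub_a.comb 2 1 := by
  rw [H22.PoinG2.poincare, H42.InvG2.poin_a, H42.InvG2.orb_len_a]
  decide

theorem hSt : H42.InvG2.sub_a.WS = H42.InvG2.sub_a.St :=
  WS_eq_of (l := 2) (C := comb H22.PoinG2.rcxG2) H42.InvG2.sub_a H42.InvG2.orb_a H42.InvG2.orb_nodup_a
    (by rw [H42.InvG2.orb_len_a]; norm_num) horb hcard

theorem conj_std [Fintype F] (h2F : (2 : F) ≠ 0) (u : ↥(Cfsg.Lie.chevG2.group F)) (hu : orderOf u = 2) :
    IsConj u (tvg R H22.PoinG2.rcxG2 2) := by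
  obtain ⟨E⟩ := H42.InvH.exists_SLH R (H23.ChevAll.core Cfsg.Lie.chevG2 (by simp))
    H22.PoinG2.rcxG2.rc
  obtain ⟨b, hb0, hb, t', ht', hs', g, hg, e⟩ :=
    exists_torus (X := H22.PoinG2.rcxG2) H22.ChevLex.lexG2 h2F H42.InvCK.ckG2 E u hu
  exact conj_cls (X := H22.PoinG2.rcxG2) (tvg R H22.PoinG2.rcxG2 2) (tv_mem R 2) (hsgn R) u ht' hs' hg e
    (horb b (hcov b hb hb0))

theorem card_std [Fintype F] (h2F : (2 : F) ≠ 0) :
    Nat.card (Subgroup.centralizer ({tvg R H22.PoinG2.rcxG2 2} : Set ↥(Cfsg.Lie.chevG2.group F))) =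
      Fintype.card F ^ 2 * (Fintype.card F ^ 2 - 1) ^ 2 := by
  have h := card_eq (R := R) (X := H22.PoinG2.rcxG2) rfl H22.ChevLex.lexG2 h2F (H22.ChevTorusCard.kerG2 rfl)
      (T := H22.RCSmall.tabG2) (h := 6) (l' := 2) (b := 1) (v := 2) H42.InvG2.sub_a rfl rfl rfl
      H42.InvG2.npos_a hSt (hsgn R)
  rw [h]
  congr 1
  have hq : 1 ≤ Fintype.card F := Fintype.card_pos
  show (Fintype.card F - 1) ^ 2 * P H42.InvG2.sub_a.comb 2 (Fintype.card F) = _
  rw [H42.InvG2.poin_a]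
  apply Nat.cast_injective (R := ℤ)
  push_cast [H22.ChevOrder.cast_pow_sub hq, H22.ChevOrder.cast_sub_one hq, evalP]
  ring

theorem cartan_one : ∀ i : Fin Cfsg.Lie.chevG2.rank, ∃ s : Fin Cfsg.Lie.chevG2.nroots,
    Cfsg.Lie.chevG2.cartan i s = 1 ∨ Cfsg.Lie.chevG2.cartan i s = -1 := by
  have : ∀ i : Fin 2, ∃ s : Fin 12, Cfsg.Lie.chevG2.cartan i s = 1 ∨ Cfsg.Lie.chevG2.cartan i s = -1 := by
    decide +kernel
  exact this

theorem terms_nil : ∀ a ∈ [6, Cfsg.Lie.chevG2.neg 6], ∀ b ∈ [9, Cfsg.Lie.chevG2.neg 9],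
    a < 12 ∧ b < 12 ∧ b ≠ a ∧ b ≠ Cfsg.Lie.chevG2.neg a ∧ Cfsg.Lie.chevG2.commTerms a b = [] := by
  decide +kernel

theorem exists_homs (h2F : (2 : F) ≠ 0) :
    ∃ φ ψ : Matrix.SpecialLinearGroup (Fin 2) F →* GL Cfsg.Lie.chevG2.Idx F,
      Function.Injective φ ∧ Function.Injective ψ ∧ (∀ A B, Commute (φ A) (ψ B)) ∧
      φ m1 = tv R 2 ∧ ψ m1 = tv R 2 ∧ (∀ A, φ A ∈ Cfsg.Lie.chevG2.group F) ∧
      (∀ A, ψ A ∈ Cfsg.Lie.chevG2.group F) := by
  have C := H23.ChevAll.core Cfsg.Lie.chevG2 (by simp)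
  have hex : ∀ r < 12, ∃ φ : Matrix.SpecialLinearGroup (Fin 2) F →* GL Cfsg.Lie.chevG2.Idx F,
      (∀ t, φ (xm t) = xg R r t) ∧ ∀ t, φ (ym t) = xg R (Cfsg.Lie.chevG2.neg r) t := by
    intro r hr
    obtain ⟨φ, _, h⟩ := H23.ChevH2.sl2_hom (F := F) C hr
    exact ⟨φ, fun t => xg_eq R ((h (xm t) t).1 rfl), fun t => xg_eq R ((h (ym t) t).2 rfl)⟩
  obtain ⟨φ, hx, hy⟩ := hex 6 (by norm_num)
  obtain ⟨ψ, kx, ky⟩ := hex 9 (by norm_num)
  have hφ : Function.Injective φ :=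
    φ_inj (X := H22.PoinG2.rcxG2) R cartan_one H42.InvG2.sub_a (0 : Fin 2) hx hy
  have hψ : Function.Injective ψ :=
    φ_inj (X := H22.PoinG2.rcxG2) R cartan_one H42.InvG2.sub_a (1 : Fin 2) kx ky
  have hc : ∀ A B, Commute (φ A) (ψ B) := by
    apply commute_φ R hx hy kx ky
    intro a ha b hb u v
    obtain ⟨h1, h2, h3, h4, h5⟩ := terms_nil a ha b hb
    exact commute_of_terms R h1 h2 h3 h4 h5 u v
  have hmem : ∀ (φ : Matrix.SpecialLinearGroup (Fin 2) F →* GL Cfsg.Lie.chevG2.Idx F) (r : ℕ), r < 12 →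
      (∀ t, φ (xm t) = xg R r t) → (∀ t, φ (ym t) = xg R (Cfsg.Lie.chevG2.neg r) t) →
      ∀ A, φ A ∈ Cfsg.Lie.chevG2.group F := by
    intro φ r hr hx hy A
    have hA : A ∈ Subgroup.closure (Set.range (xm (F := F)) ∪ Set.range ym) := by
      rw [H42.InvSL.closure_xy]; trivial
    induction hA using Subgroup.closure_induction with
    | mem x hx' =>
      rcases hx' with ⟨u, rfl⟩ | ⟨u, rfl⟩
      · rw [hx]; exact rootSubgroup_le_group R hr (xg_mem R _ _)
      · rw [hy]; exact rootSubgroup_le_group R (neg_lt H22.PoinG2.rcxG2.rc hr) (xg_mem R _ _)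
    | one => rw [map_one]; exact one_mem _
    | mul x y _ _ hx hy => rw [map_mul]; exact mul_mem hx hy
    | inv x _ hx => rw [map_inv]; exact inv_mem hx
  have hone : ∀ (φ : Matrix.SpecialLinearGroup (Fin 2) F →* GL Cfsg.Lie.chevG2.Idx F),
      Function.Injective φ → φ m1 ≠ 1 := by
    intro φ hφ h
    rw [← map_one φ] at h
    have h3 := hφ h
    have h4 := congrFun (congrFun (congrArg Subtype.val h3) 0) 0
    have h5 : (-1 : F) = 1 := by
      have h6 : ((m1 : Matrix.SpecialLinearGroup (Fin 2) F) : Matrix (Fin 2) (Fin 2) F) 0 0 = -1 := rfl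
      have h7 : ((1 : Matrix.SpecialLinearGroup (Fin 2) F) : Matrix (Fin 2) (Fin 2) F) 0 0 = 1 := rfl
      exact h6.symm.trans (h4.trans h7)
    apply h2F
    linear_combination -h5
  -- the two central involutions
  have key : ∀ χ : Matrix.SpecialLinearGroup (Fin 2) F →* GL Cfsg.Lie.chevG2.Idx F,
      χ m1 ∈ Hs R → χ m1 ≠ 1 → Commute (χ m1) (xg R 6 1) → Commute (χ m1) (xg R 9 1) →
      χ m1 = tv R 2 := by
    intro χ h1 h2 h3 h4
    have h5 : χ m1 * χ m1 = 1 := by rw [← map_mul, m1_sq, map_one]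
    obtain ⟨b, hb, hs⟩ := exists_mask R H22.PoinG2.rcxG2 h1 h5
    have hb0 := hs.mask_ne h1 h2
    have e6 : pE Cfsg.Lie.chevG2 H22.RCSmall.tabG2 b 6 = true := by
      have h6 := hs ⟨6, by decide⟩ 1
      rw [h3.eq, mul_inv_cancel_right, mul_one] at h6
      have h7 := xg_inj R H22.PoinG2.rcxG2.rc (show 6 < Cfsg.Lie.chevG2.nroots by decide) h6
      exact (pE_iff H22.PoinG2.rcxG2 rfl ⟨6, by decide⟩).2 ((neg_one_zpow_eq_one_iff h2F _).1 h7.symm)
    have e9 : pE Cfsg.Lie.chevG2 H22.RCSmall.tabG2 b 9 = true := by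
      have h6 := hs ⟨9, by decide⟩ 1
      rw [h4.eq, mul_inv_cancel_right, mul_one] at h6
      have h7 := xg_inj R H22.PoinG2.rcxG2.rc (show 9 < Cfsg.Lie.chevG2.nroots by decide) h6
      exact (pE_iff H22.PoinG2.rcxG2 rfl ⟨9, by decide⟩).2 ((neg_one_zpow_eq_one_iff h2F _).1 h7.symm)
    have hb1 : ∀ b < 4, b ≠ 0 → pE Cfsg.Lie.chevG2 H22.RCSmall.tabG2 b 6 = true →
        pE Cfsg.Lie.chevG2 H22.RCSmall.tabG2 b 9 = true → b = 1 := by decide +kernel
    have hb2 := hb1 b hb hb0 e6 e9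
    subst hb2
    exact eq_of_sgn R h1 (tv_mem R 2) hs (hsgn R)
  have hm : ∀ (B : Matrix.SpecialLinearGroup (Fin 2) F), Commute m1 B := by
    intro B
    have : (m1 : Matrix.SpecialLinearGroup (Fin 2) F) * B = B * m1 := by
      ext i j
      rw [mul_e, mul_e]
      have a : (m1 : Matrix.SpecialLinearGroup (Fin 2) F) 0 0 = -1 := rfl
      have b : (m1 : Matrix.SpecialLinearGroup (Fin 2) F) 0 1 = 0 := rfl
      have c : (m1 : Matrix.SpecialLinearGroup (Fin 2) F) 1 0 = 0 := rfl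
      have d : (m1 : Matrix.SpecialLinearGroup (Fin 2) F) 1 1 = -1 := rfl
      fin_cases i <;> fin_cases j <;> simp [a, b, c, d]
    exact this
  refine ⟨φ, ψ, hφ, hψ, hc, ?_, ?_, hmem φ 6 (by norm_num) hx hy, hmem ψ 9 (by norm_num) kx ky⟩
  · apply key φ _ (hone φ hφ)
    · rw [← hx]; exact (hm _).map φ
    · rw [← kx]; exact hc _ _
    · rw [m1_eq, φ_H R hx hy]
      exact hg_mem_Hs R H22.PoinG2.rcxG2 ⟨6, by decide⟩ (neg_ne_zero.2 one_ne_zero)
  · apply key ψ _ (hone ψ hψ)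
    · rw [← hx]; exact (hc _ _).symm
    · rw [← kx]; exact (hm _).map ψ
    · rw [m1_eq, φ_H R kx ky]
      exact hg_mem_Hs R H22.PoinG2.rcxG2 ⟨9, by decide⟩ (neg_ne_zero.2 one_ne_zero)

end g2

end H42.InvG2c
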