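import Cfsg.Agent.Lib.H42.InvSub

/-!
Orbits of parity functions under the Weyl group.
-/

set_option autoImplicit false

namespace H42.InvOrb

open H22.RGD H22.Coord H42.InvSub

variable {Φ : Type*} {l : ℕ} {C : RootComb Φ (Fin l)} (K : CoordSys C)

/-- the functional of a bit mask -/
def fb (l b : ℕ) : Fin l → ℤ := fun m => if b.testBit m then 1 else 0

/-- the sign vector of `f ∘ w` -/
def sg (f : Fin l → ℤ) (w : Equiv.Perm Φ) : ℕ :=
  Nat.ofBits (fun m => decide (Odd (fv K f (w (C.simple m)))))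

theorem sg_bit (f : Fin l → ℤ) (w : Equiv.Perm Φ) (m : Fin l) :
    (sg K f w).testBit m = decide (Odd (fv K f (w (C.simple m)))) :=
  Nat.testBit_ofBits_lt _ _ m.2

theorem sg_lt (f : Fin l → ℤ) (w : Equiv.Perm Φ) : sg K f w < 2 ^ l := Nat.ofBits_lt_two_pow _

theorem fv_w (f : Fin l → ℤ) {w : Equiv.Perm Φ} (hw : w ∈ C.W) (r : Φ) :
    fv K f (w r) = ∑ m, K.co r m * fv K f (w (C.simple m)) := by
  unfold fv
  calc ∑ m, K.co (w r) m * f m = ∑ m, ∑ k, K.co r k * (K.co (w (C.simple k)) m * f m) := by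
        refine Finset.sum_congr rfl fun m _ => ?_
        rw [K.co_of_mem hw, Finset.sum_mul]
        exact Finset.sum_congr rfl fun k _ => by ring
    _ = _ := by
        rw [Finset.sum_comm]
        exact Finset.sum_congr rfl fun k _ => by rw [Finset.mul_sum]

theorem eq_of_bits {a b : ℕ} (ha : a < 2 ^ l) (hb : b < 2 ^ l) (h : ∀ m : Fin l, a.testBit m = b.testBit m) :
    a = b := by
  apply Nat.eq_of_testBit_eq
  intro i
  by_cases hi : i < l
  · exact h ⟨i, hi⟩
  · have h1 : a < 2 ^ i := lt_of_lt_of_le ha (Nat.pow_le_pow_right (by norm_num) (by omega))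
    have h2 : b < 2 ^ i := lt_of_lt_of_le hb (Nat.pow_le_pow_right (by norm_num) (by omega))
    rw [Nat.testBit_lt_two_pow h1, Nat.testBit_lt_two_pow h2]

/-- the sign vectors determine the parity functions -/
theorem sg_eq {f : Fin l → ℤ} {w w' : Equiv.Perm Φ} (hw : w ∈ C.W) (hw' : w' ∈ C.W)
    (h : sg K f w = sg K f w') (r : Φ) : Even (fv K f (w r)) ↔ Even (fv K f (w' r)) := by
  rw [fv_w K f hw, fv_w K f hw']
  have h1 : ∀ m, Even (K.co r m * fv K f (w (C.simple m)) - K.co r m * fv K f (w' (C.simple m))) := by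
    intro m
    rw [← mul_sub]
    apply Even.mul_left
    have h2 := sg_bit K f w m
    have h3 := sg_bit K f w' m
    rw [h, h3] at h2
    have h4 : Odd (fv K f (w' (C.simple m))) ↔ Odd (fv K f (w (C.simple m))) := by
      simpa using h2
    rw [Int.even_sub, ← Int.not_odd_iff_even, ← Int.not_odd_iff_even, h4]
  have h2 : Even (∑ m, K.co r m * fv K f (w (C.simple m)) - ∑ m, K.co r m * fv K f (w' (C.simple m))) := by
    rw [← Finset.sum_sub_distrib]
    exact Finset.even_sum _ fun m _ => h1 m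
  rw [Int.even_sub] at h2
  exact h2

/-- the action of the simple reflections on bit masks -/
def act (rows : List ℕ) (i b : ℕ) : ℕ := if b.testBit i then b ^^^ rows.getD i 0 else b

/-- rows of the Cartan matrix modulo two -/
def RowsB (rows : List ℕ) : Prop :=
  ∀ i : Fin l, rows.getD i 0 < 2 ^ l ∧ ∀ m : Fin l, (rows.getD i 0).testBit m = decide (Odd (K.A i m))

theorem odd_dec (x a y : ℤ) : decide (Odd (x - a * y)) =
    (decide (Odd x) ^^ (decide (Odd a) && decide (Odd y))) := by
  by_cases hx : Odd x <;> by_cases ha : Odd a <;> by_cases hy : Odd y <;>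
    simp [hx, ha, hy, Int.odd_sub, ← Int.not_odd_iff_even]

theorem sg_refl {rows : List ℕ} (hr : RowsB K rows) (f : Fin l → ℤ) {w : Equiv.Perm Φ} (hw : w ∈ C.W)
    (i : Fin l) : sg K f (w * C.refl i) = act rows i (sg K f w) := by
  have hlt : act rows i (sg K f w) < 2 ^ l := by
    unfold act
    split_ifs
    · exact Nat.xor_lt_two_pow (sg_lt K f w) (hr i).1
    · exact sg_lt K f w
  apply eq_of_bits (sg_lt K f _) hlt
  intro m
  rw [sg_bit, Equiv.Perm.mul_apply, fv_w K f hw]
  have h1 : ∑ k, K.co (C.refl i (C.simple m)) k * fv K f (w (C.simple k)) =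
      fv K f (w (C.simple m)) - K.A i m * fv K f (w (C.simple i)) := by
    simp only [K.co_refl', K.co_simple, K.pair_simple, sub_mul, Finset.sum_sub_distrib, ite_mul, one_mul,
      zero_mul, Finset.sum_ite_eq', Finset.mem_univ, if_true]
  rw [h1, odd_dec]
  unfold act
  rw [sg_bit]
  by_cases h2 : Odd (fv K f (w (C.simple i)))
  · rw [if_pos (by simpa using h2), Nat.testBit_xor, sg_bit, (hr i).2 m]
    simp [h2]
  · rw [if_neg (by simpa using h2), sg_bit]
    simp [h2]

/-- building the orbit from a certificate -/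
def run (rows : List ℕ) : List (ℕ × ℕ) → List ℕ → List ℕ
  | [], seen => seen
  | (p, i) :: c, seen =>
    if seen.contains p && Nat.ble (i + 1) rows.length then run rows c (act rows i p :: seen) else []

theorem run_spec {rows : List ℕ} (hr : RowsB K rows) (hlen : rows.length = l) (f : Fin l → ℤ) :
    ∀ (c : List (ℕ × ℕ)) (seen : List ℕ), (∀ b ∈ seen, ∃ w ∈ C.W, sg K f w = b) →
      ∀ b ∈ run rows c seen, ∃ w ∈ C.W, sg K f w = b := by
  intro c
  induction c with
  | nil => intro seen h b hb; exact h b hb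
  | cons x c ih =>
    obtain ⟨p, i⟩ := x
    intro seen h b hb
    unfold run at hb
    by_cases hc : (seen.contains p && Nat.ble (i + 1) rows.length) = true
    · rw [if_pos hc] at hb
      rw [Bool.and_eq_true] at hc
      refine ih _ ?_ b hb
      intro b' hb'
      rcases List.mem_cons.1 hb' with rfl | hb'
      · obtain ⟨w, hw, rfl⟩ := h p (by simpa using hc.1)
        have hi : i < l := by rw [← hlen]; exact Nat.le_of_ble_eq_true hc.2
        refine ⟨w * C.refl ⟨i, hi⟩, C.W.mul_mem hw (Subgroup.subset_closure ⟨_, rfl⟩), ?_⟩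
        exact sg_refl K hr f hw ⟨i, hi⟩
      · exact h b' hb'
    · rw [if_neg hc] at hb
      simp at hb

theorem fv_simple (f : Fin l → ℤ) (m : Fin l) : fv K f (C.simple m) = f m := by
  unfold fv
  simp only [K.co_simple, ite_mul, one_mul, zero_mul, Finset.sum_ite_eq', Finset.mem_univ, if_true]

theorem sg_one {b : ℕ} (hb : b < 2 ^ l) : sg K (fb l b) 1 = b := by
  apply eq_of_bits (sg_lt K _ _) hb
  intro m
  rw [sg_bit, Equiv.Perm.one_apply, fv_simple]
  unfold fb
  by_cases h : b.testBit m <;> simp [h]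

/-- counting -/
theorem card_mul_le [Finite Φ] {l' : ℕ} (S : SubC K l') (O : List ℕ) (hO : O.Nodup)
    (h : ∀ b ∈ O, ∃ w ∈ C.W, sg K S.f w = b) : O.length * Nat.card S.St ≤ Nat.card C.W := by
  choose! g hg hg' using h
  have e : O.length * Nat.card S.St = Nat.card ({b // b ∈ O.toFinset} × S.St) := by
    rw [Nat.card_prod, Nat.card_eq_fintype_card (α := {b // b ∈ O.toFinset}), Fintype.card_coe,
      List.toFinset_card_of_nodup hO]
  rw [e]
  have hmem : ∀ b : {b // b ∈ O.toFinset}, b.1 ∈ O := fun b => List.mem_toFinset.1 b.2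
  apply Nat.card_le_card_of_injective
    (fun x : {b // b ∈ O.toFinset} × S.St =>
      (⟨(x.2 : Equiv.Perm Φ) * g x.1.1, C.W.mul_mem x.2.2.1 (hg _ (hmem _))⟩ : C.W))
  rintro ⟨b, x⟩ ⟨b', x'⟩ heq
  have heq' : (x : Equiv.Perm Φ) * g b.1 = x' * g b'.1 := congrArg Subtype.val heq
  have key : ∀ (b : {b // b ∈ O.toFinset}) (x : S.St), sg K S.f ((x : Equiv.Perm Φ) * g b.1) = b.1 := by
    intro b x
    refine Eq.trans ?_ (hg' b.1 (hmem b))
    apply eq_of_bits (sg_lt K _ _) (sg_lt K _ _)
    intro m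
    rw [sg_bit, sg_bit, Equiv.Perm.mul_apply]
    have h1 := x.2.2 (g b.1 (C.simple m))
    have h2 : Odd (fv K S.f ((x : Equiv.Perm Φ) (g b.1 (C.simple m)))) ↔ Odd (fv K S.f (g b.1 (C.simple m))) := by
      rw [← Int.not_even_iff_odd, ← Int.not_even_iff_odd]
      exact not_congr h1
    exact decide_eq_decide.2 h2
  have hb : b = b' := by
    apply Subtype.ext
    rw [← key b x, ← key b' x', heq']
  subst hb
  have hx : x = x' := Subtype.ext (mul_right_cancel heq')
  rw [hx]

end H42.InvOrb
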