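import Cfsg.Agent.Lib.H22.Coord

/-!
Subsystems of root systems defined by the parity of an integral functional.
-/

set_option autoImplicit false

namespace H42.InvSub

open H22.RGD H22.Coord

variable {Φ : Type*} {l : ℕ} {C : RootComb Φ (Fin l)}

/-- an integral functional -/
def fv (K : CoordSys C) (f : Fin l → ℤ) (r : Φ) : ℤ := ∑ m, K.co r m * f m

/-- data of a subsystem -/
structure SubC (K : CoordSys C) (l' : ℕ) where
  f : Fin l → ℤ
  β : Fin l' → Φ
  L : Fin l' → List (Fin l)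
  i0 : Fin l' → Fin l
  hL : ∀ j, C.w (L j) (C.simple (i0 j)) = β j
  hβ : ∀ j, Even (fv K f (β j))
  hβp : ∀ j, C.pos (β j)
  A : Fin l' → Fin l' → ℤ
  hA : ∀ j k m, K.co ((C.w (L j) * C.refl (i0 j) * (C.w (L j))⁻¹) (β k)) m =
    K.co (β k) m - A j k * K.co (β j) m
  T : Φ → Fin l' → ℤ
  span : ∀ r, Even (fv K f r) → ∀ m, K.co r m = ∑ k, T r k * K.co (β k) m
  N : Fin l → Fin l' → ℤ
  d : ℤ
  hd : d ≠ 0
  inv : ∀ j k, ∑ m, K.co (β j) m * N m k = if j = k then d else 0
  nonneg : ∀ r, Even (fv K f r) → C.pos r → ∀ j, 0 ≤ T r j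
  red : ∀ r, Even (fv K f r) → C.pos r → ∀ j, r = β j ∨ ∃ k, k ≠ j ∧ 0 < T r k

namespace SubC

variable {K : CoordSys C} {l' : ℕ} (S : SubC K l')

/-- the simple reflections of the subsystem -/
def s (j : Fin l') : Equiv.Perm Φ := C.w (S.L j) * C.refl (S.i0 j) * (C.w (S.L j))⁻¹

/-- the subsystem -/
abbrev p (r : Φ) : Prop := Even (fv K S.f r)

theorem s_mem (j : Fin l') : S.s j ∈ C.W :=
  C.W.mul_mem (C.W.mul_mem (C.w_mem _) (Subgroup.subset_closure ⟨_, rfl⟩)) (C.W.inv_mem (C.w_mem _))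

theorem s_sq (j : Fin l') : S.s j * S.s j = 1 := by
  have : S.s j * S.s j = C.w (S.L j) * (C.refl (S.i0 j) * C.refl (S.i0 j)) * (C.w (S.L j))⁻¹ := by
    unfold s; group
  rw [this, C.refl_mul_self]; simp

theorem s_s (j : Fin l') (r : Φ) : S.s j (S.s j r) = r := by
  rw [← Equiv.Perm.mul_apply, s_sq]; rfl

theorem s_β (j : Fin l') : S.s j (S.β j) = C.neg (S.β j) := by
  unfold s
  have h : (C.w (S.L j))⁻¹ (S.β j) = C.simple (S.i0 j) := by rw [← S.hL j]; simp
  rw [Equiv.Perm.mul_apply, h, Equiv.Perm.mul_apply, C.refl_simple, C.w_neg, S.hL]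

theorem fv_neg (f : Fin l → ℤ) (r : Φ) : fv K f (C.neg r) = - fv K f r := by
  unfold fv
  rw [← Finset.sum_neg_distrib]
  refine Finset.sum_congr rfl fun m _ => ?_
  rw [K.co_neg]; ring

/-- linear independence -/
theorem lin {x y : Fin l' → ℤ} (h : ∀ m, ∑ k, x k * K.co (S.β k) m = ∑ k, y k * K.co (S.β k) m) :
    x = y := by
  have key : ∀ (z : Fin l' → ℤ) (j : Fin l'),
      ∑ m, (∑ k, z k * K.co (S.β k) m) * S.N m j = z j * S.d := by
    intro z j
    calc ∑ m, (∑ k, z k * K.co (S.β k) m) * S.N m j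
        = ∑ m, ∑ k, z k * (K.co (S.β k) m * S.N m j) := by
          refine Finset.sum_congr rfl fun m _ => ?_
          rw [Finset.sum_mul]
          exact Finset.sum_congr rfl fun k _ => by ring
      _ = ∑ k, z k * ∑ m, K.co (S.β k) m * S.N m j := by
          rw [Finset.sum_comm]
          exact Finset.sum_congr rfl fun k _ => by rw [Finset.mul_sum]
      _ = ∑ k, if k = j then z k * S.d else 0 := by
          refine Finset.sum_congr rfl fun k _ => ?_
          rw [S.inv]
          split_ifs <;> simp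
      _ = z j * S.d := by rw [Finset.sum_ite_eq' Finset.univ j]; simp
  funext j
  have h1 := key x j
  have h2 := key y j
  rw [Finset.sum_congr rfl (fun m _ => by rw [h m])] at h1
  exact mul_right_cancel₀ S.hd (h1.symm.trans h2)

/-- coordinates of `w r` for `r` in the subsystem -/
theorem co_w {w : Equiv.Perm Φ} (hw : w ∈ C.W) {r : Φ} (hr : S.p r) (m : Fin l) :
    K.co (w r) m = ∑ k, S.T r k * K.co (w (S.β k)) m := by
  rw [K.co_of_mem hw]
  calc ∑ k, K.co r k * K.co (w (C.simple k)) m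
      = ∑ k, (∑ i, S.T r i * K.co (S.β i) k) * K.co (w (C.simple k)) m := by
        refine Finset.sum_congr rfl fun k _ => ?_
        rw [S.span r hr k]
    _ = ∑ k, ∑ i, S.T r i * (K.co (S.β i) k * K.co (w (C.simple k)) m) := by
        refine Finset.sum_congr rfl fun k _ => ?_
        rw [Finset.sum_mul]
        exact Finset.sum_congr rfl fun i _ => by ring
    _ = ∑ i, S.T r i * ∑ k, K.co (S.β i) k * K.co (w (C.simple k)) m := by
        rw [Finset.sum_comm]
        exact Finset.sum_congr rfl fun i _ => by rw [Finset.mul_sum]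
    _ = _ := by
        refine Finset.sum_congr rfl fun i _ => ?_
        rw [← K.co_of_mem hw]

theorem co_s (j : Fin l') {r : Φ} (hr : S.p r) (m : Fin l) :
    K.co (S.s j r) m = K.co r m - (∑ k, S.A j k * S.T r k) * K.co (S.β j) m := by
  rw [S.co_w (S.s_mem j) hr m, S.span r hr m, Finset.sum_mul, ← Finset.sum_sub_distrib]
  refine Finset.sum_congr rfl fun k _ => ?_
  have := S.hA j k m
  rw [show S.s j (S.β k) = (C.w (S.L j) * C.refl (S.i0 j) * (C.w (S.L j))⁻¹) (S.β k) from rfl, this]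
  ring

theorem p_s {j : Fin l'} {r : Φ} (hr : S.p r) : S.p (S.s j r) := by
  have h : fv K S.f (S.s j r) = fv K S.f r - (∑ k, S.A j k * S.T r k) * fv K S.f (S.β j) := by
    unfold fv
    rw [Finset.mul_sum, ← Finset.sum_sub_distrib]
    refine Finset.sum_congr rfl fun m _ => ?_
    rw [S.co_s j hr]; ring
  show Even _
  rw [h]
  exact hr.sub ((S.hβ j).mul_left _)

theorem p_s_iff (j : Fin l') (r : Φ) : S.p r ↔ S.p (S.s j r) :=
  ⟨fun h => S.p_s h, fun h => by have := S.p_s (j := j) h; rwa [s_s] at this⟩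

theorem p_neg {r : Φ} (hr : S.p r) : S.p (C.neg r) := by
  show Even _
  rw [fv_neg]; exact hr.neg

theorem T_β (j k : Fin l') : S.T (S.β j) k = if k = j then 1 else 0 := by
  have : S.T (S.β j) = fun k => if k = j then 1 else 0 := by
    apply S.lin
    intro m
    rw [← S.span _ (S.hβ j) m]
    simp
  rw [this]

theorem T_neg {r : Φ} (hr : S.p r) (k : Fin l') : S.T (C.neg r) k = - S.T r k := by
  have : S.T (C.neg r) = fun k => - S.T r k := by
    apply S.lin
    intro m
    rw [← S.span _ (S.p_neg hr) m, K.co_neg, S.span r hr m, ← Finset.sum_neg_distrib]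
    exact Finset.sum_congr rfl fun k _ => by ring
  rw [this]

theorem T_s (j : Fin l') {r : Φ} (hr : S.p r) (k : Fin l') :
    S.T (S.s j r) k = S.T r k - if k = j then ∑ i, S.A j i * S.T r i else 0 := by
  have : S.T (S.s j r) = fun k => S.T r k - if k = j then ∑ i, S.A j i * S.T r i else 0 := by
    apply S.lin
    intro m
    rw [← S.span _ (S.p_s hr) m, S.co_s j hr m, S.span r hr m]
    simp only [sub_mul, Finset.sum_sub_distrib, ite_mul, zero_mul, Finset.sum_ite_eq', Finset.mem_univ,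
      if_true]
  rw [this]

theorem s_neg (j : Fin l') (r : Φ) : S.s j (C.neg r) = C.neg (S.s j r) := C.W_neg (S.s_mem j) r

theorem pos_of_T {r : Φ} (hr : S.p r) {k : Fin l'} (h : 0 < S.T r k) : C.pos r := by
  by_contra hn
  have h1 : C.pos (C.neg r) := (C.pos_neg r).2 hn
  have h2 := S.nonneg _ (S.p_neg hr) h1 k
  rw [S.T_neg hr] at h2
  omega

/-- the root combinatorics of the subsystem -/
def comb : RootComb {r // S.p r} (Fin l') where
  pos r := C.pos r.1
  neg r := ⟨C.neg r.1, S.p_neg r.2⟩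
  simple j := ⟨S.β j, S.hβ j⟩
  refl j := (S.s j).subtypePerm (fun r => (S.p_s_iff j r).symm)
  neg_neg r := Subtype.ext (C.neg_neg r.1)
  pos_neg r := C.pos_neg r.1
  simple_pos j := S.hβp j
  refl_simple j := Subtype.ext (S.s_β j)
  refl_neg j r := Subtype.ext (S.s_neg j r.1)
  refl_refl j r := Subtype.ext (S.s_s j r.1)
  refl_pos j r hp hne := by
    rcases S.red r.1 r.2 hp j with h | ⟨k, hk, hk'⟩
    · exact absurd (Subtype.ext h) hne
    · apply S.pos_of_T (S.p_s r.2) (k := k)
      show 0 < S.T (S.s j r.1) k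
      rw [S.T_s j r.2, if_neg hk, sub_zero]
      exact hk'

/-- the coordinates of the subsystem -/
def coord : CoordSys S.comb where
  co r j := S.T r.1 j
  A := S.A
  co_inj := by
    intro r r' h
    apply Subtype.ext
    apply K.co_inj
    funext m
    rw [S.span r.1 r.2 m, S.span r'.1 r'.2 m]
    refine Finset.sum_congr rfl fun k _ => ?_
    have := congrFun h k
    simp only at this
    rw [this]
  co_simple i j := by
    show S.T (S.β i) j = _
    rw [S.T_β]
  co_neg r j := S.T_neg r.2 j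
  co_refl i r j := S.T_s i r.2 j
  pos_nonneg r hp j := S.nonneg r.1 r.2 hp j

@[simp] theorem comb_pos (r : {r // S.p r}) : S.comb.pos r ↔ C.pos r.1 := Iff.rfl
@[simp] theorem comb_neg_val (r : {r // S.p r}) : (S.comb.neg r).1 = C.neg r.1 := rfl
@[simp] theorem comb_simple_val (j : Fin l') : (S.comb.simple j).1 = S.β j := rfl
@[simp] theorem comb_refl_val (j : Fin l') (r : {r // S.p r}) : (S.comb.refl j r).1 = S.s j r.1 := rfl

/-! ### the Weyl group of the subsystem and the stabiliser -/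

/-- the group generated by the reflections of the subsystem -/
def WS : Subgroup (Equiv.Perm Φ) := Subgroup.closure (Set.range S.s)

theorem WS_le : S.WS ≤ C.W := by
  unfold WS
  rw [Subgroup.closure_le]
  rintro _ ⟨j, rfl⟩
  exact S.s_mem j

/-- the stabiliser of the parity function -/
def St : Subgroup (Equiv.Perm Φ) where
  carrier := {w | w ∈ C.W ∧ ∀ r, S.p (w r) ↔ S.p r}
  one_mem' := ⟨C.W.one_mem, fun _ => Iff.rfl⟩
  mul_mem' := by
    rintro a b ⟨ha, ha'⟩ ⟨hb, hb'⟩
    exact ⟨C.W.mul_mem ha hb, fun r => by rw [Equiv.Perm.mul_apply, ha', hb']⟩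
  inv_mem' := by
    rintro a ⟨ha, ha'⟩
    exact ⟨C.W.inv_mem ha, fun r => by rw [← ha' (a⁻¹ r)]; simp⟩

theorem WS_le_St : S.WS ≤ S.St := by
  unfold WS
  rw [Subgroup.closure_le]
  rintro _ ⟨j, rfl⟩
  exact ⟨S.s_mem j, fun r => (S.p_s_iff j r).symm⟩

theorem card_comb_le [Finite Φ] : Nat.card S.comb.W ≤ Nat.card S.WS := by
  have h1 : ∀ v : S.comb.W, ∃ w : S.WS, ∀ r : {r // S.p r}, (w : Equiv.Perm Φ) r.1 =
      ((v : Equiv.Perm {r // S.p r}) r).1 := by
    rintro ⟨v, hv⟩
    obtain ⟨M, rfl⟩ := S.comb.exists_word hv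
    suffices h : ∃ w ∈ S.WS, ∀ r : {r // S.p r}, w r.1 = (S.comb.w M r).1 by
      obtain ⟨w, hw, h⟩ := h
      exact ⟨⟨w, hw⟩, h⟩
    clear hv
    induction M with
    | nil => exact ⟨1, S.WS.one_mem, fun r => rfl⟩
    | cons j M ih =>
      obtain ⟨w, hw, h⟩ := ih
      refine ⟨S.s j * w, S.WS.mul_mem (Subgroup.subset_closure ⟨j, rfl⟩) hw, fun r => ?_⟩
      rw [RootComb.w_cons, Equiv.Perm.mul_apply, Equiv.Perm.mul_apply, comb_refl_val, h]
  choose g hg using h1
  apply Nat.card_le_card_of_injective g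
  intro v v' h
  apply Subtype.ext
  apply Equiv.ext
  intro r
  apply Subtype.ext
  rw [← hg, ← hg, h]

theorem WS_eq_St [Finite Φ] (h : Nat.card S.St ≤ Nat.card S.comb.W) : S.WS = S.St := by
  apply Subgroup.eq_of_le_of_card_ge S.WS_le_St
  exact h.trans S.card_comb_le

end SubC

end H42.InvSub
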