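import Cfsg.Agent.Lib.H42.InvC
import Cfsg.Agent.Lib.H42.InvOrb
import Cfsg.Agent.Lib.H47.RootCentT

/-!
Root group systems of subsystem subgroups of the Chevalley groups, and centralisers of
elements of the torus.
-/

set_option autoImplicit false

namespace H42.InvSys

open H22.RGD H22.Coord H22.RCCheck H22.RCComb H22.ChevTri H22.ChevRel H22.ChevSys H22.ChevMain
open H22.ChevStd H22.ChevUni H42.InvH H42.InvC H42.InvSub
open Cfsg.Lie (ChevalleyDatum)
open scoped MatrixGroups Matrix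

variable {D : ChevalleyDatum} {F : Type*} [Field F] (R : Rel D F) {X : RCX D} {l' : ℕ}
  (S : SubC (H22.RCComb.coord X) l')

/-- `n_β(c)` represents the reflection -/
theorem rep_ngβ (j : Fin l') {c : F} (hc : c ≠ 0) :
    (chevSys R X).Rep (ng R (S.β j : ℕ) c) (S.s j) := by
  obtain ⟨L, i, hL, ε, hε, _, hn⟩ := exists_ng_conj R X (S.β j)
  have hε0 : ε * c ≠ 0 := by
    rcases hε with h | h <;> rw [h] <;> simpa using hc
  have h1 := (((chevSys R X).rep_nw L).mul (rep_ng (R := R) (X := X) i hε0)).mul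
    ((chevSys R X).rep_nw L).inv
  rw [← nsw_eq_nw R X, ← hn c] at h1
  have hv : ((H22.RCComb.comb X).w (S.L j))⁻¹ * (H22.RCComb.comb X).w L ∈ (H22.RCComb.comb X).W :=
    (H22.RCComb.comb X).W.mul_mem ((H22.RCComb.comb X).W.inv_mem ((H22.RCComb.comb X).w_mem _))
      ((H22.RCComb.comb X).w_mem _)
  have h2 := (H22.RCComb.coord X).conj_refl hv (i := S.i0 j) (j := i) (by
    rw [Equiv.Perm.mul_apply, hL, ← S.hL j]; simp)
  have h3 : (H22.RCComb.comb X).w L * (H22.RCComb.comb X).refl i * ((H22.RCComb.comb X).w L)⁻¹ =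
      S.s j := by
    unfold SubC.s
    rw [mul_inv_eq_iff_eq_mul]
    have : (H22.RCComb.comb X).w (S.L j) * ((((H22.RCComb.comb X).w (S.L j))⁻¹ *
        (H22.RCComb.comb X).w L) * (H22.RCComb.comb X).refl i) =
        (H22.RCComb.comb X).w L * (H22.RCComb.comb X).refl i := by group
    rw [← this, h2]; group
  rw [h3] at h1
  exact h1

/-- closure under addition -/
theorem p_add {r s k : Fin D.nroots} {a b : ℕ} (hr : S.p r) (hs : S.p s)
    (hco : ∀ j < D.rank, X.rc.co k j = a * X.rc.co r j + b * X.rc.co s j) : S.p k := by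
  have h : fv (H22.RCComb.coord X) S.f k = a * fv (H22.RCComb.coord X) S.f r +
      b * fv (H22.RCComb.coord X) S.f s := by
    unfold fv
    rw [Finset.mul_sum, Finset.mul_sum, ← Finset.sum_add_distrib]
    refine Finset.sum_congr rfl fun m _ => ?_
    have := hco m m.2
    have e : ∀ x : Fin D.nroots, (H22.RCComb.coord X).co x m = X.rc.co x m := fun _ => rfl
    rw [e, e, e, this]; ring
  show Even _
  rw [h]
  exact (hr.mul_left _).add (hs.mul_left _)

include R in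
theorem simple_le_aux (j : Fin l') : D.rootSubgroup F (S.β j : ℕ) ≤
    stabSub (⨆ s : {s // S.comb.pos s ∧ s ≠ S.comb.simple j},
      D.rootSubgroup F ((s : {r // S.p r}).1 : ℕ)) := by
  refine iSup_stab R (fun s : {s // S.comb.pos s ∧ s ≠ S.comb.simple j} =>
    ((s : {r // S.p r}).1 : ℕ)) ?_
  intro a ha s u
  rw [mem_rootSubgroup R] at ha
  obtain ⟨t, rfl⟩ := ha
  obtain ⟨s, hs, hsi⟩ := s
  have hmem : ∀ (k : Fin D.nroots) (hk : S.p k), (H22.RCComb.comb X).pos k → k ≠ S.β j →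
      ∀ v : F, xg R k v ∈ ⨆ s : {s // S.comb.pos s ∧ s ≠ S.comb.simple j},
        D.rootSubgroup F ((s : {r // S.p r}).1 : ℕ) := by
    intro k hk h1 h2 v
    exact (le_iSup (fun s : {s // S.comb.pos s ∧ s ≠ S.comb.simple j} =>
      D.rootSubgroup F ((s : {r // S.p r}).1 : ℕ)) ⟨⟨k, hk⟩, h1, fun h => h2 (congrArg Subtype.val h)⟩)
      (xg_mem R _ v)
  have hsi' : s.1 ≠ S.β j := fun h => hsi (Subtype.ext h)
  have hspos : (H22.RCComb.comb X).pos s.1 := hs
  refine conj_mem_of_closed R X.rc (S.β j).2 s.1.2 (fun h => hsi' (Fin.ext h)) ?_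
    (hmem s.1 s.2 hspos hsi') ?_ t u
  · intro h
    have h1 : s.1 = (H22.RCComb.comb X).neg (S.β j) := Fin.ext h
    rw [h1] at hspos
    exact (H22.RCComb.comb X).not_pos_neg _ (S.hβp j) hspos
  · intro k hk a b ha hb hco v
    have hkp : S.p ⟨k, hk⟩ := p_add S (k := ⟨k, hk⟩) (S.hβ j) s.2 hco
    -- positivity
    obtain ⟨m, hm⟩ := (H22.RCComb.coord X).exists_co_pos hspos
    have hβm := (H22.RCComb.coord X).pos_nonneg _ (S.hβp j) m
    have hcom := hco m m.2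
    have e : ∀ x : Fin D.nroots, (H22.RCComb.coord X).co x m = X.rc.co x m := fun _ => rfl
    rw [e] at hm hβm
    have hkpos : 0 < X.rc.co k m := by
      rw [hcom]
      have : (0 : ℤ) < b * X.rc.co s.1 m := mul_pos (by exact_mod_cast hb) hm
      have h2 : (0 : ℤ) ≤ a * X.rc.co (S.β j) m := mul_nonneg (by positivity) hβm
      linarith
    refine hmem ⟨k, hk⟩ hkp ((H22.RCComb.coord X).pos_of_co_pos (j := m) hkpos) ?_ v
    intro h
    have h3 : k = (S.β j : ℕ) := congrArg Fin.val h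
    rw [h3] at hcom
    have h4 : (0 : ℤ) < b * X.rc.co s.1 m := mul_pos (by exact_mod_cast hb) hm
    have h5 : (0 : ℤ) ≤ ((a : ℤ) - 1) * X.rc.co (S.β j) m := by
      apply mul_nonneg _ hβm
      have : (1 : ℤ) ≤ a := by exact_mod_cast ha
      linarith
    nlinarith

/-- the root group system of the subsystem -/
def sysS : Sys (GL D.Idx F) S.comb where
  X := fun r => D.rootSubgroup F (r.1 : ℕ)
  H := D.diagonalSubgroup F
  n := fun j => ng R (S.β j : ℕ) 1
  H_le := fun r => (chevSys R X).H_le r.1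
  cj_n := fun j r => (rep_ngβ R S j one_ne_zero).2.2 r.1
  n_stab_H := fun j => (chevSys R X).N_le_stab_H (rep_ngβ R S j one_ne_zero).1
  n_sq := fun j => by
    have h := (rep_ngβ R S j (one_ne_zero (α := F))).mul (rep_ngβ R S j (one_ne_zero (α := F)))
    rw [S.s_sq] at h
    exact (chevSys R X).mem_H_of_rep_one h
  rank_one := by
    intro j x hx hx1
    have hx' : x ∈ D.rootSubgroup F (D.neg (S.β j : ℕ)) := hx
    rw [mem_rootSubgroup R] at hx'
    obtain ⟨t, rfl⟩ := hx'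
    have ht : t ≠ 0 := by rintro rfl; exact hx1 (xg_zero R _)
    obtain ⟨k, hk, e⟩ := (chevSys R X).rep_mod_H (rep_ngβ R S j (one_ne_zero (α := F)))
      (rep_ngβ R S j (neg_ne_zero.2 (inv_ne_zero ht)))
    exact ⟨xg R (S.β j : ℕ) t⁻¹, xg_mem R _ _, k, hk, xg R (S.β j : ℕ) t⁻¹, xg_mem R _ _,
      by rw [← e]; exact xg_neg_eq R _⟩
  simple_le := fun j => simple_le_aux R S j
  nontriv := fun r => rootSubgroup_ne_bot R X.rc r.1.2
  X_inj := fun _ _ h => Subtype.ext (rootSubgroup_inj R X h)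
  disj_UH_V := by
    rw [eq_bot_iff]
    rintro g ⟨h1, h2⟩
    rw [Subgroup.mem_bot]
    have e1 : (⨆ s : {s // S.comb.pos s}, D.rootSubgroup F ((s : {r // S.p r}).1 : ℕ)) ⊔
        D.diagonalSubgroup F ≤ (chevSys R X).B :=
      sup_le (iSup_le fun s => ((chevSys R X).X_le_U s.2).trans (chevSys R X).U_le_B)
        (chevSys R X).H_le_B
    have e2 : (⨆ s : {s // ¬ S.comb.pos s}, D.rootSubgroup F ((s : {r // S.p r}).1 : ℕ)) ≤
        (chevSys R X).V := iSup_le fun s => (chevSys R X).X_le_V s.2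
    exact (chevSys R X).eq_one_of_mem_B_V (e1 h1) (e2 h2)
  disj_U_H := by
    rw [eq_bot_iff]
    rintro g ⟨h1, h2⟩
    rw [Subgroup.mem_bot]
    have e1 : (⨆ s : {s // S.comb.pos s}, D.rootSubgroup F ((s : {r // S.p r}).1 : ℕ)) ≤
        (chevSys R X).U := iSup_le fun s => (chevSys R X).X_le_U s.2
    exact (chevSys R X).eq_one_of_mem_U_H (e1 h1) h2

@[simp] theorem sysS_X (r : {r // S.p r}) : (sysS R S).X r = D.rootSubgroup F (r.1 : ℕ) := rfl
@[simp] theorem sysS_H : (sysS R S).H = D.diagonalSubgroup F := rfl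
@[simp] theorem sysS_n (j : Fin l') : (sysS R S).n j = ng R (S.β j : ℕ) 1 := rfl

/-! ### centralisers -/

section cent

variable {t : GL D.Idx F} (ht : t ∈ D.diagonalSubgroup F) {χ : ℕ → F}
  (hχ : ∀ s < D.nroots, ∀ u : F, t * xg R s u * t⁻¹ = xg R s (χ s * u))
  (hp : ∀ r : Fin D.nroots, χ r = 1 ↔ S.p r)

include hχ hp in
theorem comm_xg {r : Fin D.nroots} (hr : S.p r) (u : F) : t * xg R (r : ℕ) u * t⁻¹ = xg R (r : ℕ) u := by
  rw [hχ r r.2, (hp r).2 hr, one_mul]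

include ht hχ hp in
theorem Γ_le : (sysS R S).Γ ≤ D.group F ⊓ Subgroup.centralizer {t} := by
  have hH : D.diagonalSubgroup F ≤ D.group F ⊓ Subgroup.centralizer {t} := by
    intro h hh
    refine ⟨?_, Subgroup.mem_centralizer_singleton_iff.2 ?_⟩
    · rw [← chevSys_Γ R X]; exact (chevSys R X).B_le_Γ ((chevSys R X).H_le_B hh)
    · rw [diagonalSubgroup_eq R X] at hh ht
      exact H47.RootCent.Hs_comm R X.rc h hh t ht
  have hX : ∀ r : Fin D.nroots, S.p r → ∀ u, xg R (r : ℕ) u ∈ D.group F ⊓ Subgroup.centralizer {t} := by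
    intro r hr u
    refine ⟨rootSubgroup_le_group R r.2 (xg_mem R _ _), Subgroup.mem_centralizer_singleton_iff.2 ?_⟩
    have := comm_xg R S hχ hp hr u
    rw [mul_inv_eq_iff_eq_mul] at this
    exact this.symm
  refine sup_le (sup_le ?_ hH) (sup_le hH ?_)
  · refine iSup_le fun s => ?_
    intro x hx
    rw [sysS_X, mem_rootSubgroup R] at hx
    obtain ⟨u, rfl⟩ := hx
    exact hX s.1.1 s.1.2 u
  · rw [Subgroup.closure_le]
    rintro _ ⟨j, rfl⟩
    rw [sysS_n, ng_def]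
    have hn : xg R (D.neg (S.β j : ℕ)) (-(1 : F)⁻¹) ∈ D.group F ⊓ Subgroup.centralizer {t} :=
      hX ((H22.RCComb.comb X).neg (S.β j)) (S.p_neg (S.hβ j)) _
    exact mul_mem (mul_mem (hX _ (S.hβ j) _) hn) (hX _ (S.hβ j) _)

theorem exists_rep_WS {w : Equiv.Perm (Fin D.nroots)} (hw : w ∈ S.WS) :
    ∃ n ∈ (sysS R S).N, (chevSys R X).Rep n w := by
  unfold SubC.WS at hw
  induction hw using Subgroup.closure_induction with
  | mem x hx =>
    obtain ⟨j, rfl⟩ := hx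
    exact ⟨_, (sysS R S).n_mem_N j, rep_ngβ R S j one_ne_zero⟩
  | one => exact ⟨1, one_mem _, (chevSys R X).rep_H (one_mem _)⟩
  | mul x y _ _ hx hy =>
    obtain ⟨n, hn, hn'⟩ := hx
    obtain ⟨m, hm, hm'⟩ := hy
    exact ⟨n * m, mul_mem hn hm, hn'.mul hm'⟩
  | inv x _ hx =>
    obtain ⟨n, hn, hn'⟩ := hx
    exact ⟨n⁻¹, inv_mem hn, hn'.inv⟩

variable (Z : Lex X.rc)

include hχ hp Z in
theorem U_mem {u : GL D.Idx F} (hu : u ∈ (chevSys R X).U) (hc : t * u * t⁻¹ = u) :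
    u ∈ (sysS R S).U := by
  have hn := X.rc.nroots_eq
  obtain ⟨τ, rfl, h0⟩ := pr_of_comm R Z hu hχ hc
  unfold pr
  apply Subgroup.list_prod_mem
  intro x hx
  simp only [List.mem_map] at hx
  obtain ⟨r, hr, rfl⟩ := hx
  rw [List.mem_range'_1] at hr
  by_cases h1 : χ r = 1
  · have hr' : r < D.nroots := by omega
    have hpr : S.p ⟨r, hr'⟩ := (hp ⟨r, hr'⟩).1 h1
    have hpos : S.comb.pos ⟨⟨r, hr'⟩, hpr⟩ := hr.1
    exact (sysS R S).X_le_U hpos (xg_mem R _ _)
  · rw [h0 r hr.1 (by omega) h1, xg_zero]; exact one_mem _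

include ht hχ hp Z in
/-- the centraliser of a torus element -/
theorem cent_le (hSt : S.WS = S.St) {g : GL D.Idx F} (hg : g ∈ D.group F) (hc : t * g * t⁻¹ = g) :
    g ∈ (sysS R S).Γ := by
  rw [← chevSys_Γ R X] at hg
  obtain ⟨b, hb, m, w, hm, u, hu, rfl⟩ := (chevSys R X).normal_form hg
  have htH : t ∈ (chevSys R X).H := ht
  have htB : t ∈ (chevSys R X).B := (chevSys R X).H_le_B ht
  -- `t m t⁻¹ m⁻¹ ∈ H`
  have hh : t * m * t⁻¹ * m⁻¹ ∈ (chevSys R X).H := by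
    have h1 := (chevSys R X).N_conj_H hm.1 ((chevSys R X).H.inv_mem htH)
    have : t * m * t⁻¹ * m⁻¹ = t * (m * t⁻¹ * m⁻¹) := by group
    rw [this]
    exact (chevSys R X).H.mul_mem htH h1
  have hu' : t * u * t⁻¹ ∈ (chevSys R X).Um w :=
    conj_mem_of_stabSub ((chevSys R X).H_le_stab_iSup _ htH) hu
  have hb' : t * b * t⁻¹ * (t * m * t⁻¹ * m⁻¹) ∈ (chevSys R X).B :=
    mul_mem (mul_mem (mul_mem htB hb) (inv_mem htB)) ((chevSys R X).H_le_B hh)
  have e : t * b * t⁻¹ * (t * m * t⁻¹ * m⁻¹) * m * (t * u * t⁻¹) = b * m * u := by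
    rw [← hc]; group
  obtain ⟨e1, e2⟩ := (chevSys R X).normal_form_unique hm hb' hb hu' hu e
  -- the two unipotent parts
  have huS : u ∈ (sysS R S).U := U_mem R S hχ hp Z ((chevSys R X).Um_le_U _ hu) e2
  obtain ⟨v, hv, h, hhH, rfl⟩ := (chevSys R X).mem_B.1 hb
  have hcomm : t * h = h * t := by
    have h1 := hhH
    have h2 := htH
    rw [chevSys_H, diagonalSubgroup_eq R X] at h1 h2
    exact H47.RootCent.Hs_comm R X.rc t h2 h h1
  have e3 : v⁻¹ * (t * v * t⁻¹) = h * (t * m * t⁻¹ * m⁻¹)⁻¹ * h⁻¹ := by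
    have e4 : t * v * t⁻¹ * h * (t * m * t⁻¹ * m⁻¹) = v * h := by
      rw [← e1]
      have : t * (v * h) * t⁻¹ = t * v * t⁻¹ * (t * h) * t⁻¹ := by group
      rw [this, hcomm]; group
    have e5 : t * v * t⁻¹ = v * h * (t * m * t⁻¹ * m⁻¹)⁻¹ * h⁻¹ := by
      rw [← e4]; group
    rw [e5]; group
  have e6 : v⁻¹ * (t * v * t⁻¹) = 1 := by
    apply (chevSys R X).eq_one_of_mem_U_H
    · exact mul_mem (inv_mem hv) (conj_mem_of_stabSub ((chevSys R X).H_le_stab_U htH) hv)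
    · rw [e3]
      exact mul_mem (mul_mem hhH (inv_mem hh)) (inv_mem hhH)
  have hvS : v ∈ (sysS R S).U := U_mem R S hχ hp Z hv (inv_mul_eq_one.1 e6).symm
  have e7 : t * m * t⁻¹ * m⁻¹ = 1 := by
    rw [e6] at e3
    have : (t * m * t⁻¹ * m⁻¹)⁻¹ = h⁻¹ * (h * (t * m * t⁻¹ * m⁻¹)⁻¹ * h⁻¹) * h := by group
    rw [← inv_eq_one, this, ← e3]; group
  -- the Weyl group part
  obtain ⟨ε, hε0, hε⟩ := H47.RootCent.Hyp.exists_eps hm
  have hchi : ∀ r : Fin D.nroots, χ (w r : Fin D.nroots) = χ r := by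
    intro r
    have e8 : t * m * t⁻¹ = m := by rwa [mul_inv_eq_one] at e7
    have e9 : t * (m * xg R (r : ℕ) 1 * m⁻¹) * t⁻¹ = m * (t * xg R (r : ℕ) 1 * t⁻¹) * m⁻¹ := by
      have : t * (m * xg R (r : ℕ) 1 * m⁻¹) * t⁻¹ =
          (t * m * t⁻¹) * (t * xg R (r : ℕ) 1 * t⁻¹) * (t * m * t⁻¹)⁻¹ := by group
      rw [this, e8]
    rw [hε, hχ _ (w r).2, hχ _ r.2, hε] at e9
    have h10 := xg_inj R X.rc (w r).2 e9
    have h11 := hε0 r
    rw [mul_one, mul_one, mul_comm] at h10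
    exact mul_left_cancel₀ h11 h10
  have hwSt : w ∈ S.St := by
    refine ⟨hm.2.1, fun r => ?_⟩
    rw [← hp, ← hp, hchi]
  rw [← hSt] at hwSt
  obtain ⟨n, hn, hn'⟩ := exists_rep_WS R S hwSt
  obtain ⟨k, hk, hmk⟩ := (chevSys R X).rep_mod_H hn' hm
  have hkS : k ∈ (sysS R S).H := hk
  have hmN : m ∈ (sysS R S).N := by
    rw [hmk]; exact mul_mem hn ((sysS R S).H_le_N hkS)
  have hhS : h ∈ (sysS R S).H := hhH
  exact mul_mem (mul_mem ((sysS R S).B_le_Γ (mul_mem ((sysS R S).U_le_B hvS)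
    ((sysS R S).H_le_B hhS))) ((sysS R S).N_le_Γ hmN)) ((sysS R S).B_le_Γ ((sysS R S).U_le_B huS))

include ht hχ hp Z in
theorem cent_eq (hSt : S.WS = S.St) : D.group F ⊓ Subgroup.centralizer {t} = (sysS R S).Γ := by
  apply le_antisymm
  · rintro g ⟨hg, hc⟩
    apply cent_le R S ht hχ hp Z hSt hg
    have hc' : g ∈ Subgroup.centralizer {t} := hc
    rw [Subgroup.mem_centralizer_singleton_iff] at hc'
    rw [← hc']; group
  · exact Γ_le R S ht hχ hp

end cent

end H42.InvSys
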